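import Cfsg.Agent.RG.A0

/-! A search through the elementary abelian subgroups of a 2-group acting on a module. -/

set_option autoImplicit false
set_option maxRecDepth 1000000
set_option linter.unusedSectionVars false

namespace CF.RG
open Cfsg Subgroup CF.Loc CF.LX CF.Comp CF.Dce CF.Comp.Mat CF.J4 CF.JP CF.RF
open scoped commutatorElement

theorem df_gen {P : ℕ → ℕ → ℕ} {FX CM : ℕ → ℕ} {lf : List ℕ → ℕ → Bool} {A B : ℕ → Prop} {Fx : ℕ → ℕ → Prop}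
    (h1 : ∀ i, A i → i < 191) (h2 : ∀ i j, A i → A j → i ≠ j → A (P i j) ∧ P i j ≠ i ∧ P i (P i j) = j ∧
      (i < j → i < P i j → (CM i).testBit j = true) ∧ ∀ v, Fx i v → Fx j v → Fx (P i j) v)
    (h3 : ∀ i, A i → ∀ v, B v → ((FX i).testBit v = true ↔ Fx i v)) (k : ℕ) : ∀ S C L, (∀ s ∈ S, A s) →
      (∀ c, A c → c ∉ S → L.testBit c = true) → (∀ v, C.testBit v = true ↔ B v ∧ ∀ s ∈ S, Fx s v) →
      df P FX CM lf k S C L = true →
      ∃ S C, (∀ i, A i ↔ i ∈ S) ∧ (∀ v, C.testBit v = true ↔ B v ∧ ∀ s ∈ S, Fx s v) ∧ lf S C = true := by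
  classical
  induction k with
  | zero => exact fun _ _ _ _ _ _ h => absurd h Bool.false_ne_true
  | succ k ih =>
    intro S C L a1 a2 a3 h
    obtain ⟨h, h'⟩ := brec_and.1 h
    by_cases q : ∃ b, A b ∧ b ∉ S
    swap
    · exact ⟨S, C, fun i => ⟨fun a => by_contra fun n => q ⟨i, a, n⟩, a1 i⟩, a3, h⟩
    obtain ⟨b, ⟨b1, b2⟩, mn⟩ : ∃ b, (A b ∧ b ∉ S) ∧ ∀ c, A c → c ∉ S → b ≤ c :=
      ⟨Nat.find q, Nat.find_spec q, fun c x y => Nat.find_min' q ⟨x, y⟩⟩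
    have ne : ∀ s ∈ S, b ≠ s := fun s hs e => b2 (e ▸ hs)
    change allB (dfS P FX CM (df P FX CM lf k) S (lk S) C L) 192 L = true at h'
    have e := allB_spec h' b (a2 b b1 b2)
    simp only [dfS, forceL_eq, force_eq, lmap_eq, lapp_eq] at e
    refine ih _ _ _ ?_ (fun c c1 c2 => ?_) (fun v => ?_) (imp_iff.1 e (lall_iff.2 fun s hs => ?_))
    · simp only [List.forall_mem_cons, List.forall_mem_append, List.forall_mem_map]
      exact ⟨b1, fun s hs => (h2 b s b1 (a1 s hs) (ne s hs)).1, a1⟩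
    · simp only [List.mem_cons, List.mem_append, not_or] at c2
      obtain ⟨x, y, u, w, -⟩ := h2 b c b1 c1 (Ne.symm c2.1)
      refine (Nat.testBit_and _ _ _).trans (Bool.and_eq_true_iff.2 ⟨(Nat.testBit_and _ _ _).trans
        (Bool.and_eq_true_iff.2 ⟨a2 c c1 c2.2.2, w ((mn c c1 c2.2.2).lt_of_ne (Ne.symm c2.1)) ((mn _ x fun m =>
          c2.2.1 (u ▸ List.mem_map_of_mem m)).lt_of_ne y.symm)⟩), (Nat.testBit_xor _ _ _).trans ?_⟩)
      rw [testBit_full, Bool.eq_false_iff.2 (mt lk_iff.1 c2.2.1)]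
      simp [h1 c c1]
    · refine Iff.trans (by rw [show Nat.land C (FX b) = C &&& FX b from rfl, Nat.testBit_and, Bool.and_eq_true, a3]) ?_
      simp only [List.forall_mem_cons, List.forall_mem_append, List.forall_mem_map]
      exact ⟨fun ⟨⟨x, y⟩, w⟩ => have w := (h3 b b1 v x).1 w
        ⟨x, w, fun s hs => (h2 b s b1 (a1 s hs) (ne s hs)).2.2.2.2 v w (y s hs), y⟩,
        fun ⟨x, w, _, y⟩ => ⟨⟨x, y⟩, (h3 b b1 v x).2 w⟩⟩
    · obtain ⟨x, y, -⟩ := h2 b s b1 (a1 s hs) (ne s hs)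
      exact brec_or.2 (or_iff_not_imp_right.2 fun n => ble_iff.2 ((mn _ x fun m =>
        n (tb_eq _ _ ▸ lk_iff.2 m)).lt_of_ne y.symm))

/-- the commutator of a vector with a matrix -/
noncomputable def cn (n v x : ℕ) : ℕ := force v fun v => Nat.xor v (vm n v x)

theorem cn_eq (n v x : ℕ) : cn n v x = v ^^^ vm n v x := force_eq _ _

theorem cn_xor (n u v x : ℕ) : cn n (u ^^^ v) x = cn n u x ^^^ cn n v x := by
  rw [cn_eq, cn_eq, cn_eq, vm_xor]; ac_rfl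

theorem cn_lt {n v : ℕ} (h : v < 2 ^ n) (x : ℕ) : cn n v x < 2 ^ n := cn_eq _ _ _ ▸ Nat.xor_lt_two_pow h (vm_lt _ _ _)

theorem cn_mm {n v : ℕ} (hn : 0 < n) (h : v < 2 ^ n) (x : ℕ) : vm n v (x ^^^ mo n) = cn n v x := by
  rw [vm_xor', vm_mo hn h, cn_eq, Nat.xor_comm]

/-- the list of commutators with a matrix -/
noncomputable def sn (n x k : ℕ) : List ℕ := Nat.rec (motive := fun _ => List ℕ) [nat_lit 0] (fun j L => forceL L fun L =>
  force (cn n (Nat.shiftLeft (nat_lit 1) j) x) fun g => Bool.rec (lapp L (lmap (Nat.xor g) L)) L (lm g L)) k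

theorem sn_spec {n x k : ℕ} (hk : k ≤ n) : ∀ v ∈ sn n x k, ∃ c < 2 ^ n, cn n c x = v := by
  induction k with
  | zero => exact fun v hv => ⟨0, Nat.two_pow_pos n, by rw [List.mem_singleton.1 hv, cn_eq, vm_zero]; rfl⟩
  | succ k ih =>
    have e : sn n x (k + 1) = Bool.rec (sn n x k ++ (sn n x k).map (cn n (2 ^ k) x ^^^ ·)) (sn n x k)
        (lm (cn n (2 ^ k) x) (sn n x k)) := by
      rw [← Nat.one_shiftLeft, ← lmap_eq, ← lapp_eq]
      exact (forceL_eq _ _).trans (force_eq _ _)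
    rw [e]
    cases lm (cn n (2 ^ k) x) (sn n x k)
    · intro v hv
      rcases List.mem_append.1 hv with q | q
      · exact ih (by omega) v q
      · obtain ⟨w, q', rfl⟩ := List.mem_map.1 q
        obtain ⟨c, l, rfl⟩ := ih (by omega) w q'
        exact ⟨_, Nat.xor_lt_two_pow (Nat.pow_lt_pow_right one_lt_two hk) l, cn_xor _ _ _ _⟩
    · exact ih (by omega)

/-- the vectors with a given image -/
noncomputable def so (n N y c k : ℕ) : ℕ := Nat.rec (motive := fun _ => ℕ) (full N) (fun j r => force r fun r =>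
  Nat.land r (Nat.xor (colP n N y j) (Bool.rec (full N) (nat_lit 0) (tb c j)))) k

theorem so_iff {n N y c v : ℕ} (hv : v < N) (hc : c < 2 ^ n) : (so n N y c n).testBit v = true ↔ vm n v y = c := by
  have : ∀ k ≤ n, ((so n N y c k).testBit v = true ↔ ∀ j < k, (vm n v y).testBit j = c.testBit j) := fun k hk => by
    induction k with
    | zero => exact iff_of_true ((testBit_full N v).trans (decide_eq_true hv)) (by simp)
    | succ k ih =>
      have q : so n N y c (k + 1) = so n N y c k &&& (colP n N y k ^^^ Bool.rec (full N) 0 (tb c k)) :=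
        force_eq (so n N y c k) fun r => r &&& (colP n N y k ^^^ Bool.rec (motive := fun _ => ℕ) (full N) 0 (tb c k))
      rw [q, Nat.testBit_and, Bool.and_eq_true, ih (by omega), Nat.forall_lt_succ_right, Nat.testBit_xor,
        testBit_vm n v y hk hv, tb_eq]
      refine and_congr_right' ?_
      generalize (vm n v y).testBit k = a
      cases c.testBit k
      · change (a ^^ (full N).testBit v) = true ↔ _
        rw [testBit_full, decide_eq_true hv]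
        cases a <;> simp
      · change (a ^^ Nat.testBit 0 v) = true ↔ _
        cases a <;> simp
  refine (this n le_rfl).trans ⟨fun e => Nat.eq_of_testBit_eq fun j => ?_, fun e j _ => by rw [e]⟩
  by_cases q : j < n
  · exact e j q
  have m := Nat.pow_le_pow_right two_pos (not_lt.1 q)
  rw [Nat.testBit_lt_two_pow (hc.trans_le m), Nat.testBit_lt_two_pow ((vm_lt _ _ _).trans_le m)]

theorem popc8_le {N F : ℕ} (h : N < 16777215) (l : F < 2 ^ N) (q : ℕ) : popc 8 q F ≤ pop N F := by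
  have k : ∀ x, N ≤ x → F.testBit x = false := fun x hx =>
    Nat.testBit_lt_two_pow (l.trans_le (Nat.pow_le_pow_right two_pos hx))
  rw [popc_eq (by norm_num), pop_eq h k]
  exact (Nat.mod_le _ _).trans (Finset.card_le_card fun i hi => mem_bits.2 ⟨not_le.1 fun q => by
    simpa [k i q] using (mem_bits.1 hi).2, (mem_bits.1 hi).2⟩)

attribute [irreducible] sn so

/-- the product table -/
noncomputable def pq (m X i j : ℕ) : ℕ := gx 8 (gx (Nat.mul 8 m) X i) j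

/-- failure of the inequality for the orders -/
noncomputable def dF (q : ℕ) (PF IM : ℕ → ℕ) (r C a : ℕ) : Bool :=
  Nat.ble (Nat.succ r) (Nat.mul (PF a) (popc 8 q (Nat.land C (IM a))))

/-- the whole search -/
noncomputable def dOK (n N m LP X : ℕ) (lf : (ℕ → ℕ) → (ℕ → ℕ) → (ℕ → ℕ) → List ℕ → ℕ → ℕ → Bool) : Bool :=
  force (pkc N m fun i => fixM n N (gx (Nat.mul n n) LP i)) fun FX =>
  force (pkc N m fun i => force (gx (Nat.mul n n) LP i) fun x => lk (sn n x n)) fun IM =>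
  force (pkc 24 m fun i => pop N (gx N FX i)) fun PF =>
  force (pkc 191 m fun b => om (fun c => c) (fun c => force (pq m X b c) fun p => Bool.rec false (Bool.rec false
    (Nat.ble (Nat.succ p) m) (Nat.ble (Nat.succ b) p)) (Nat.ble (Nat.succ b) c)) m) fun CM =>
  df (pq m X) (gx N FX) (gx 191 CM) (fun S C => force (Nat.mul (Nat.succ (llen S)) (pop N C)) fun r =>
    lf (gx N FX) (gx N IM) (gx 24 PF) S C r) 8 [] (full N) (full m)

/-- the check of the product table -/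
noncomputable def pOK (n m LP X : ℕ) : Bool := allFrom (fun i => force (gx (Nat.mul n n) LP i) fun x =>
  Bool.rec false (allFrom (fun j => force (gx (Nat.mul n n) LP j) fun y => force (pq m X i j) fun e =>
    force (mm n x y) fun p => Bool.rec false
    (Bool.rec (Bool.rec (bn (Nat.beq p (mm n y x))) true (Nat.beq i j)) (Bool.rec false (Nat.beq (pq m X i e) j)
      (Nat.beq p (gx (Nat.mul n n) LP e))) (Nat.ble (Nat.succ e) m)) (bn (Nat.beq e i))) (nat_lit 0) m)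
    (bn (Nat.beq x (mo n)))) (nat_lit 0) m

variable {G : Type*} [Group G]

/-- a 2-group acting on a module -/
structure Sy (n N m LP X : ℕ) (T V : Subgroup G) (ν : G → ℕ) : Prop where
  co : Co n V ⊥ ν
  eN : N = 2 ^ n
  lN : N < 16777215
  lm : m ≤ 191
  VT : V ≤ T
  TN : T ≤ 𝐍(V)
  cen : T ⊓ 𝐂(V) ≤ V
  inv : ∀ g ∈ T, g * g ∈ V → g ∈ V ∨ ∃ i < m, Ac n V ν g (gx (n * n) LP i)
  pt : pOK n m LP X = true

namespace Co
variable {n N : ℕ} {V : Subgroup G} {ν : G → ℕ} (h : Co n V ⊥ ν)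
include h

theorem _root_.CF.J4.Co.eqv {a b : G} (ha : a ∈ V) (hb : b ∈ V) (e : ν a = ν b) : a = b :=
  inv_mul_eq_one.1 ((h.eq_iff ha hb).1 e)

theorem _root_.CF.J4.Co.isEA : EA V := fun a ha => (h.ker _ (mul_mem ha ha)).1 (by rw [h.mul a ha a ha, Nat.xor_self])

theorem _root_.CF.J4.Co.acv {g k : G} {x : ℕ} (a : Ac n V ν g x) (e : g⁻¹ * k ∈ V) : Ac n V ν k x := by
  have := h.cd.mul' a (h.ac_self e)
  rw [mul_inv_cancel_left] at this
  exact h.congr this fun c _ => by rw [vm_mm h.pos, vm_mo h.pos (vm_lt _ _ _)]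

theorem _root_.CF.J4.Co.cmv {g y : G} {x : ℕ} (a : Ac n V ν g x) (e : g * g ∈ V) (hy : y ∈ V) :
    ⁅y, g⁆ ∈ V ∧ ν ⁅y, g⁆ = cn n (ν y) x := by
  have k := norm_mem' a.1 hy
  rw [show ⁅y, g⁆ = y * (g * y * g⁻¹)⁻¹ by simp only [commutatorElement_def]; group]
  refine ⟨mul_mem hy (inv_mem k), ?_⟩
  rw [h.mul _ hy _ (inv_mem k), h.inv k, cn_eq, ← (h.acv a (k := g⁻¹) (by simpa using inv_mem e)).2 y hy, inv_inv]

theorem _root_.CF.J4.Co.fixi {g y : G} {x : ℕ} (a : Ac n V ν g x) (hy : y ∈ V) :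
    vm n (ν y) x = ν y ↔ y * g = g * y := by
  rw [← a.2 y hy]
  exact ⟨fun e => by simpa [mul_assoc, inv_mul_eq_iff_eq_mul] using h.eqv (norm_mem a.1 hy) hy e,
    fun e => by rw [mul_assoc, e, inv_mul_cancel_left]⟩

theorem _root_.CF.J4.Co.cardV [Finite G] : Nat.card V = 2 ^ n := by rw [h.card, card_bot, mul_one]

theorem _root_.CF.J4.Co.cdle [Finite G] (hN : N = 2 ^ n) (lN : N < 16777215) {K : Subgroup G} {F : ℕ} (l : F < 2 ^ N)
    (e : ∀ g ∈ K, g ∈ V ∧ F.testBit (ν g) = true) : Nat.card K ≤ pop N F :=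
  le_of_le_of_eq (Set.ncard_le_ncard (s := (K : Set G)) fun g hg => e g hg) (h.ncard_mask hN lN l)

theorem _root_.CF.J4.Co.lecd [Finite G] (hN : N = 2 ^ n) (lN : N < 16777215) {K : Subgroup G} {F : ℕ} (l : F < 2 ^ N)
    (e : ∀ g ∈ V, F.testBit (ν g) = true → g ∈ K) : pop N F ≤ Nat.card K :=
  h.ncard_mask hN lN l ▸ Set.ncard_le_ncard (t := K) fun g hg => e g hg.1 hg.2

end Co

/-- the tables of the search -/
def Tabs (n N m LP : ℕ) (FX IM PF : ℕ → ℕ) : Prop := ∀ i < m, FX i = fixM n N (gx (n * n) LP i) ∧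
  PF i ≤ pop N (FX i) ∧ ∀ v, (IM i).testBit v = true → ∃ c < 2 ^ n, cn n c (gx (n * n) LP i) = v

/-- a node of the search -/
structure Nod (n N m LP : ℕ) (V : Subgroup G) (ν : G → ℕ) (W : Subgroup G) (S : List ℕ) (C r : ℕ) : Prop where
  s1 : ∀ i, (i < m ∧ ∃ w ∈ W, Ac n V ν w (gx (n * n) LP i)) ↔ i ∈ S
  s2 : ∀ v ∈ V, C.testBit (ν v) = true ↔ v ∈ 𝐂(W)
  s3 : C < 2 ^ N
  er : r = (S.length + 1) * pop N C

namespace Sy
variable [Finite G] {n N m LP X : ℕ} {T V : Subgroup G} {ν : G → ℕ} (h : Sy n N m LP X T V ν)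
include h

local notation "mx" => gx (n * n) LP

theorem lt {v : G} (hv : v ∈ V) : ν v < N := h.eN ▸ h.co.lt v hv

omit h in
theorem mxl (i : ℕ) : mx i < 2 ^ (n * n) := by rw [gx_eq]; exact fld_lt _ _ _

theorem div {g k : G} {x : ℕ} (hg : g ∈ T) (hk : k ∈ T) (a : Ac n V ν g x) (b : Ac n V ν k x) : g⁻¹ * k ∈ V :=
  h.cen ⟨T.mul_mem (T.inv_mem hg) hk, (ac_mo h.co).1 (h.co.ac_div a b)⟩

theorem nmo {g : G} {i : ℕ} (hi : i < m) (a : Ac n V ν g (mx i)) : g ∉ V := fun q => by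
  have p := h.pt
  simp only [pOK, force_eq, brec_and, allFrom_zero, bn_iff, beq_iff] at p
  exact (p i hi).1 (h.co.uniq' a (h.co.ac_self q) (mxl i) (mo_lt h.co.pos))

theorem srch {lf : (ℕ → ℕ) → (ℕ → ℕ) → (ℕ → ℕ) → List ℕ → ℕ → ℕ → Bool} (c : dOK n N m LP X lf = true)
    {W : Subgroup G} (l : W ≤ T) (e : EA W) : ∃ FX IM PF S C r, Tabs n N m LP FX IM PF ∧ Nod n N m LP V ν W S C r ∧
      lf FX IM PF S C r = true := by
  have p := h.pt
  have p0 := h.co.pos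
  have N0 : 0 < N := h.eN ▸ Nat.two_pow_pos n
  simp only [dOK, pOK, force_eq, brec_and, allFrom_zero, bn_iff, beq_iff, Nat.mul_eq] at c p
  have fx : ∀ i < m, gx N (pkc N m fun i => fixM n N (mx i)) i = fixM n N (mx i) := fun i hi =>
    gx_pkc N0 (fun k _ => lt_of_bits fun v q => ((fixM_iff h.eN).1 q).1) hi
  obtain ⟨S, C, s1, s2, s3⟩ := df_gen (A := fun i => i < m ∧ ∃ w ∈ W, Ac n V ν w (mx i)) (B := (· < N))
    (Fx := fun i v => vm n v (mx i) = v) (fun _ a => a.1.trans_le h.lm) (fun i j ⟨hi, a, ha, ea⟩ ⟨hj, b, hb, eb⟩ ne => by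
      obtain ⟨p1, p2⟩ := (p i hi).2 j hj
      cases q : Nat.ble (Nat.succ (pq m X i j)) m <;> rw [q] at p2
      · refine absurd (beq_iff.2 (h.co.uniq' (h.co.cd.mul' ea eb) (e.comm a ha b hb ▸ h.co.cd.mul' eb ea)
          (mm_lt p0 _ _) (mm_lt p0 _ _))) (bn_iff.1 ((brec_or.1 p2).resolve_left (mt beq_iff.1 ne)))
      obtain ⟨p2, p3⟩ := brec_and.1 p2
      replace p2 : mm n (mx i) (mx j) = mx (pq m X i j) := beq_iff.1 p2
      refine ⟨⟨ble_iff.1 q, a * b, mul_mem ha hb, p2 ▸ h.co.cd.mul' ea eb⟩, p1, beq_iff.1 p3,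
        fun lt lt' => ?_, fun v x y => by rw [← p2, vm_mm p0, x, y]⟩
      rw [gx_pkc (by norm_num) (fun k _ => lt_of_bits fun v q => by
        obtain ⟨c, x, -, rfl⟩ := om_iff.1 q; exact x.trans_le h.lm) hi]
      exact om_iff.2 ⟨j, hj, brec_and.2 ⟨ble_iff.2 lt, brec_and.2 ⟨ble_iff.2 lt', q⟩⟩, rfl⟩)
    (fun i hi v hv => by rw [fx i hi.1]; exact (fixM_iff h.eN).trans (and_iff_right hv)) 8 _ _ _ (by simp)
    (fun c a _ => by rw [testBit_full]; simp [a.1]) (fun v => by rw [testBit_full]; simp) c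
  refine ⟨_, _, _, S, C, _, fun i hi => ⟨fx i hi, ?_, fun v q => sn_spec le_rfl v
      (lk_iff.1 (gx_pkc (W := N) (f := fun i => lk (sn n (mx i) n)) N0 (fun k _ => lt_of_bits fun v q => by
        obtain ⟨c, x, rfl⟩ := sn_spec le_rfl v (lk_iff.1 q); exact h.eN ▸ cn_lt x _) hi ▸ q))⟩,
    ⟨s1, fun v hv => (s2 _).trans ⟨fun q w hw => ?_, fun q => ⟨h.lt hv, fun s hs => ?_⟩⟩,
    lt_of_bits fun v q => ((s2 v).1 q).1, by rw [llen_eq]⟩, s3⟩
  · exact (gx_pkc (by norm_num) (fun k _ => (Nat.mod_lt _ (by decide)).trans (by decide)) hi).le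
  · rcases h.inv w (l hw) (e w hw ▸ one_mem V) with m | ⟨i, hi, a⟩
    · exact h.co.isEA.comm _ m _ hv
    · exact ((h.co.fixi a hv).1 (q.2 i ((s1 i).1 ⟨hi, w, hw, a⟩))).symm
  · obtain ⟨-, w, hw, a⟩ := (s1 s).2 hs
    exact (h.co.fixi a hv).2 (q w hw).symm

variable {W : Subgroup G} {S : List ℕ} {C r : ℕ}

theorem card_W' (l : W ≤ T) (s : ∀ g ∈ W, g ∈ V ∨ ∃ i ∈ S, Ac n V ν g (mx i)) :
    Nat.card W ≤ (S.length + 1) * Nat.card ↥(W ⊓ V) := by
  have := card_le_rel (A := W) (Z := V) (r := Ac n V ν) (fun g a k b x => h.div (l a) (l b)) (L := mo n :: S.map mx)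
    fun g hg => (s g hg).elim (fun q => ⟨_, List.mem_cons_self, h.co.ac_self q⟩)
      fun ⟨i, hi, a⟩ => ⟨_, List.mem_cons_of_mem _ (List.mem_map_of_mem hi), a⟩
  simpa using this

theorem mS (l : W ≤ T) (e : EA W) (s : Nod n N m LP V ν W S C r) {g : G} (hg : g ∈ W) :
    g ∈ V ∨ ∃ i ∈ S, Ac n V ν g (mx i) :=
  (h.inv g (l hg) (e g hg ▸ one_mem V)).imp_right fun ⟨i, hi, a⟩ => ⟨i, (s.s1 i).1 ⟨hi, g, hg, a⟩, a⟩

theorem card_W (l : W ≤ T) (e : EA W) (s : Nod n N m LP V ν W S C r) :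
    Nat.card W ≤ (S.length + 1) * Nat.card ↥(W ⊓ V) := h.card_W' l fun _ => h.mS l e s

theorem card_C (s : Nod n N m LP V ν W S C r) : Nat.card ↥(V ⊓ 𝐂(W)) = pop N C :=
  (h.co.cdle (K := V ⊓ 𝐂(W)) h.eN h.lN s.s3 fun g hg => ⟨hg.1, (s.s2 g hg.1).2 hg.2⟩).antisymm
    (h.co.lecd h.eN h.lN s.s3 fun g hg e => ⟨hg, (s.s2 g hg).1 e⟩)

theorem card_r (l : W ≤ T) (e : EA W) (s : Nod n N m LP V ν W S C r) : Nat.card W ≤ r :=
  (h.card_W l e s).trans (s.er ▸ Nat.mul_le_mul_left _ (h.card_C s ▸ card_le_of_le fun _ hg => ⟨hg.2, e.le_cent hg.1⟩))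

theorem eqV (l : W ≤ T) (e : EA W) (s : Nod n N m LP V ν W S C r) (q : Nat.beq (llen S) 0 = true) (c : N ≤ Nat.card W) :
    W = V := by
  rw [beq_iff, llen_eq, List.length_eq_zero_iff] at q
  exact eq_of_le_of_card_ge (fun g hg => (h.mS l e s hg).resolve_right (by simp [q])) (h.co.cardV ▸ h.eN ▸ c)

theorem dim {D : Subgroup G} {x v a : G} (k : Cf T V D x v) (ha : a ∈ W1 V D x) (aV : a ∉ V)
    (h1 : ∀ e ∈ D, ⁅e, a⁆ ∈ II V D x) {Y M : ℕ} (A : Ac n V ν a Y) (s : Nod n N m LP V ν (W1 V D x) S C r)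
    (hM : ∀ v, M.testBit v = true → ∃ c < 2 ^ n, cn n c Y = v) (q : ℕ) :
    pop N (fixM n N Y) * popc 8 q (C &&& M) ≤ r := by
  have eW : EA (W1 V D x) := fun a ha => k.eW a (k.WW ha)
  have hn := h.card_W (k.WD.trans k.DT) eW s
  have aa : a * a ∈ V := k.eW a (k.WW ha) ▸ one_mem V
  have p : HomOn V fun y => ⁅y, a⁆ := fun g hg y hy => by
    beta_reduce
    rw [show ⁅g * y, a⁆ = g * ⁅y, a⁆ * g⁻¹ * ⁅g, a⁆ by simp only [commutatorElement_def]; group,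
      k.ea.comm g hg _ (h.co.cmv A aa hy).1, mul_inv_cancel_right,
      k.ea.comm _ (h.co.cmv A aa hy).1 _ (h.co.cmv A aa hg).1]
  have c1 := p.card_eq (Z := V ⊓ 𝐂₁(a)) (inf_le_right : D ⊓ V ≤ V) fun g => ⟨fun hg =>
    have e := commutatorElement_eq_one_iff_mul_comm.2 (mem_c1.1 hg.2)
    ⟨⟨k.key a ha aV h1 g hg.1 (e ▸ one_mem _), hg.1⟩, e⟩,
    fun hg => ⟨hg.1.2, mem_c1.2 (commutatorElement_eq_one_iff_mul_comm.1 hg.2)⟩⟩
  have IV : II V D x ≤ V ⊓ 𝐂(W1 V D x) := fun g hg => ⟨hg.1.2, fun w hw => k.eW.comm w (k.WW hw) g (k.WW hg.2)⟩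
  have c2 := card_sup_mul_card_inf (H := V ⊓ 𝐂(W1 V D x) ⊓ p.im V le_rfl) (N := II V D x)
    fun g hg => centralizer_le_normalizer _ (k.cI hg.1.1)
  have c3 := card_le_of_le (sup_le (inf_le_left : _ ⊓ p.im V le_rfl ≤ _) IV)
  have c4 : Nat.card ↥(V ⊓ 𝐂(W1 V D x) ⊓ p.im V le_rfl ⊓ II V D x) ≤ Nat.card (p.im (D ⊓ V) inf_le_right) :=
    card_le_of_le fun g hg => by
      obtain ⟨y, hy, rfl⟩ := p.mem_im.1 hg.1.2
      exact p.mem_im.2 ⟨y, ⟨k.key a ha aV h1 y hy hg.2, hy⟩, rfl⟩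
  have c5 : pop N (fixM n N Y) ≤ Nat.card ↥(V ⊓ 𝐂₁(a)) := h.co.lecd h.eN h.lN (lt_of_bits fun v q =>
    ((fixM_iff h.eN).1 q).1) fun g hg e => ⟨hg, mem_c1.2 ((h.co.fixi A hg).1 ((fixM_iff h.eN).1 e).2)⟩
  have l' := (Nat.and_le_left (m := M)).trans_lt s.s3
  have c6 := (popc8_le h.lN l' q).trans (h.co.lecd h.eN h.lN (K := V ⊓ 𝐂(W1 V D x) ⊓ p.im V le_rfl) l' fun g hg e => by
    rw [Nat.testBit_and, Bool.and_eq_true] at e
    obtain ⟨c, hc, q⟩ := hM _ e.2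
    obtain ⟨y, hy, rfl⟩ := h.co.surj c hc
    exact ⟨⟨hg, (s.s2 g hg).1 e.1⟩, p.mem_im.2 ⟨y, hy, h.co.eqv (h.co.cmv A aa hy).1 hg
      ((h.co.cmv A aa hy).2.trans q)⟩⟩)
  have c7 := (h.card_C s).le
  have c8 : Nat.card ↥(W1 V D x ⊓ V) ≤ Nat.card (II V D x) := card_le_of_le fun g hg => k.mI hg.1 hg.2
  rw [card_cj, c1] at hn
  refine Nat.le_of_mul_le_mul_right ?_ (Nat.card_pos (α := II V D x))
  calc _ ≤ Nat.card ↥(V ⊓ 𝐂₁(a)) * (Nat.card ↥(V ⊓ 𝐂(W1 V D x) ⊓ p.im V le_rfl) * Nat.card (II V D x)) := by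
        rw [mul_assoc]; gcongr
    _ ≤ Nat.card ↥(V ⊓ 𝐂₁(a)) * (pop N C * Nat.card (p.im (D ⊓ V) inf_le_right)) := by
        rw [← c2]; gcongr; exact c3.trans c7
    _ ≤ (S.length + 1) * Nat.card (II V D x) * pop N C := by
        rw [mul_comm (pop N C), ← mul_assoc, mul_comm (Nat.card ↥(V ⊓ 𝐂₁(a)))]
        exact Nat.mul_le_mul_right _ (hn.trans (Nat.mul_le_mul_left _ c8))
    _ = _ := by rw [s.er]; ring

/-- the node of a configuration -/
theorem cfg {lf : (ℕ → ℕ) → (ℕ → ℕ) → (ℕ → ℕ) → List ℕ → ℕ → ℕ → Bool} (c : dOK n N m LP X lf = true)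
    {D : Subgroup G} {x v : G} (k : Cf T V D x v) : ∃ FX IM PF S C r, Tabs n N m LP FX IM PF ∧
      Nod n N m LP V ν (W1 V D x) S C r ∧ lf FX IM PF S C r = true ∧ ∃ i ∈ S, (∀ q, ¬ dF q PF IM r C i = true) ∧
        ∃ a ∈ W1 V D x, Ac n V ν a (mx i) ∧ ∀ y ∈ V, ⁅y, a⁆ ∈ II V D x → y ∈ D := by
  have eW : EA (W1 V D x) := fun a ha => k.eW a (k.WW ha)
  have WT := k.WD.trans k.DT
  obtain ⟨FX, IM, PF, S, C, r, t, s, e⟩ := h.srch c WT eW
  obtain ⟨a, ha, aI, h1⟩ := exists_fix (k.pT.to_le k.DT) k.WD inf_le_right k.nI k.nW fun l =>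
    k.not_le fun w hw => (l hw).1.2
  have aV : a ∉ V := fun q => aI (k.mI ha q)
  obtain ⟨i, iS, A⟩ := (h.mS WT eW s ha).resolve_left aV
  obtain ⟨t1, t2, t3⟩ := t i ((s.s1 i).2 iS).1
  refine ⟨FX, IM, PF, S, C, r, t, s, e, i, iS, fun q p => ?_, a, ha, A, k.key a ha aV h1⟩
  exact ((ble_iff.1 p).trans ((Nat.mul_le_mul_right _ (t1 ▸ t2)).trans (h.dim k ha aV h1 A s t3 q))).not_gt
    (Nat.lt_succ_self _)

end Sy

end CF.RG
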