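import Cfsg.Agent.RF.D
import Cfsg.Agent.RF.A
import Cfsg.Agent.Held.Mod

/-! The ten-dimensional module: the setting. -/

set_option autoImplicit false

namespace CF.RG
open Cfsg Subgroup CF.Loc CF.LX CF.Comp CF.Dce CF.J4

/-- the matrices of the eight generators on the exterior square; the bits `0..9` stand for
`e34, e24, e14, e04, e23, e13, e03, e12, e02, e01`, and the generators are the transvections
`x01, x12, x23, x34, x21, x32, x10, x43` with `xij : ej ↦ ej + ei` -/
noncomputable def LW : List ℕ := [mo 10,
  nat_lit 634135238545013481589700560897, nat_lit 634135238545013481589700560897,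
  nat_lit 634753906333129245660182222849, nat_lit 634753906333129245660182222849,
  nat_lit 634134936608778540705789249539, nat_lit 634134936608778540705789249539,
  nat_lit 634134936313486520407113615361, nat_lit 634134936313486520407113615361,
  nat_lit 951047586370561885111047948289, nat_lit 951047586370561885111047948289,
  nat_lit 634212345344873719562703473665, nat_lit 634212345344873719562703473665,
  nat_lit 634289678855290681024437028865, nat_lit 634289678855290681024437028865,
  nat_lit 634134936322714398173865969665, nat_lit 634134936322714398173865969665]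

/-- the module with coordinates and named elements -/
structure Gn {G : Type*} [Group G] (A : Subgroup G) (ν : G → ℕ) (f : ℕ → G) : Prop where
  co : Co 10 A ⊥ ν
  cen : 𝐂(A) ≤ A
  tb : Tb (Ac 10 A ν) f (nth (mo 10) LW)
  gen : 𝐍(A) ≤ clo f (gensW 8) ⊔ A
  card : Nat.card 𝐍(A) = 9999360 * 1024
  simp : ∀ K : Subgroup G, 𝐍(A) ≤ 𝐍(K) → A ≤ K → K ⊓ 𝐍(A) ≤ A ∨ 𝐍(A) ≤ K

end CF.RG
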