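import Cfsg.Agent.RG.A0

/-! Matrices of degree ten and order 31 over the field of two elements. -/

set_option autoImplicit false
set_option maxRecDepth 1000000

namespace CF.RG.Id
open CF.Comp CF.Dce CF.Comp.Mat CF.J4 CF.JP CF.RF

theorem n10 : 0 < 10 := by norm_num

theorem v10 (a b : ℕ) : vm 10 a b < 1024 := vm_lt 10 a b

theorem x10 {a b : ℕ} (ha : a < 1024) (hb : b < 1024) : a ^^^ b < 1024 := Nat.xor_lt_two_pow (n := 10) ha hb

/-- the image of a vector under a power -/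
noncomputable def ob (n X u k : ℕ) : ℕ := vm n u (pw (mm n) (mo n) X k)

theorem ob_lt (n X u k : ℕ) : ob n X u k < 2 ^ n := vm_lt _ _ _

theorem ob_zero {n u : ℕ} (hn : 0 < n) (X : ℕ) (hu : u < 2 ^ n) : ob n X u 0 = u := by
  rw [ob, pw_zero, vm_mo hn hu]

theorem ob_succ {n : ℕ} (hn : 0 < n) (X u k : ℕ) : ob n X u (k + 1) = vm n (ob n X u k) X := by
  rw [ob, pw_succ, vm_mm hn, ob]

theorem ob_add (X u a b : ℕ) : ob 10 X (ob 10 X u a) b = ob 10 X u (a + b) := by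
  induction b with
  | zero => exact ob_zero n10 X (ob_lt _ _ _ _)
  | succ b ih => rw [ob_succ n10, ih, ← ob_succ n10, add_assoc]

theorem ob_z (X k : ℕ) : ob 10 X 0 k = 0 := vm_zero _ _

theorem pw_two (X k u : ℕ) : ob 10 (mm 10 X X) u k = ob 10 X u (2 * k) := by
  induction k with
  | zero => rw [ob, ob, pw_zero, pw_zero]
  | succ k ih => rw [ob_succ n10, ih, vm_mm n10, ← ob_succ n10, ← ob_succ n10, mul_add]

/-- a polynomial in the matrix applied to a vector -/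
noncomputable def Ψ (X u p : ℕ) : ℕ := vm 31 p (pk 31 31 (ob 10 X u))

theorem Ψ_xor (X u p q : ℕ) : Ψ X u (p ^^^ q) = Ψ X u p ^^^ Ψ X u q := vm_xor _ _ _ _

theorem Ψ_zero (X u : ℕ) : Ψ X u 0 = 0 := vm_zero _ _

theorem Ψ_pow (X u : ℕ) {k : ℕ} (hk : k < 31) : Ψ X u (2 ^ k) = ob 10 X u k := by
  rw [Ψ, vm_pow hk, fld_pk (by norm_num) (fun k _ => (ob_lt 10 X u k).trans (by norm_num)) hk]

theorem Ψ_one (X : ℕ) {u : ℕ} (hu : u < 1024) : Ψ X u 1 = u := (Ψ_pow X u (k := 0) (by norm_num)).trans (ob_zero n10 X hu)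

theorem Ψ_lt (X u p : ℕ) : Ψ X u p < 1024 := by
  rw [Ψ, ← vm_mod]
  exact xor_ind (n := 31) (P := fun p => Ψ X u p < 1024) (by rw [Ψ_zero]; norm_num)
    (fun i hi => Ψ_pow X u hi ▸ ob_lt 10 X u i) (fun a _ b _ p q => Ψ_xor X u a b ▸ x10 p q) _
    (Nat.mod_lt _ (by norm_num))

theorem Ψ_map {X u M B : ℕ} (h : ∀ k < 31, Ψ X u (vm 31 (2 ^ k) M) = vm 10 (ob 10 X u k) B) :
    ∀ p < 2 ^ 31, Ψ X u (vm 31 p M) = vm 10 (Ψ X u p) B :=
  xor_ind (by rw [vm_zero, Ψ_zero, vm_zero]) (fun i hi => by rw [h i hi, Ψ_pow X u hi])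
    fun a _ b _ p q => by rw [vm_xor, Ψ_xor, Ψ_xor, vm_xor, p, q]

/-- multiplication of the exponents by `a` and addition of `b` -/
noncomputable def PM (a b : ℕ) : ℕ := pkc 31 31 fun k => Nat.shiftLeft 1 (Nat.mod (Nat.add (Nat.mul a k) b) 31)

/-- the product of polynomials -/
noncomputable def pm (p e : ℕ) : ℕ := force (PM 1 1) fun R => vm 31 p (pkc 31 31 (ob 31 R e))

/-- the irreducible polynomials of degree five -/
def FL : List ℕ := [37, 41, 47, 55, 59, 61]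

/-- the idempotents -/
def EL : List (ℕ × ℕ) := [(37, 377253537), (41, 91635305), (47, 319508959), (55, 1754629943), (59, 1826728215),
  (61, 2072694985)]

/-- multiplication by the variable -/
def nx (f t : ℕ) : ℕ := if t < 16 then 2 * t else 2 * t ^^^ f

/-- the powers of the variable -/
def it (f k : ℕ) : ℕ := Nat.rec (motive := fun _ => ℕ) 1 (fun _ r => nx f r) k

/-- the matrix with two blocks -/
noncomputable def blk (f g : ℕ) : ℕ := pkc 10 10 fun i => nx f (2 ^ i % 32) + 32 * nx g (2 ^ i / 32)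

theorem chk_EL : ∀ d ∈ EL, d.1 ∈ FL ∧ d.2 < 2 ^ 31 ∧ d.1 < 2 ^ 31 ∧ pm d.1 d.2 = 0 ∧ vm 31 d.2 (PM 2 0) = d.2 := by
  decide +kernel

theorem chk_nx : ∀ f ∈ FL, (∀ t < 32, nx f t < 32 ∧ (vm 31 t (PM 1 1) = nx f t ∨ vm 31 t (PM 1 1) = nx f t ^^^ f)) ∧
    ∀ r < 32, r = 0 ∨ ∃ k < 31, it f k = r := by decide +kernel

theorem chk_blk : ∀ f ∈ FL, ∀ g ∈ FL, (∀ i < 10, fld 10 (blk f g) i % 32 = nx f (2 ^ i % 32) ∧
    fld 10 (blk f g) i / 32 = nx g (2 ^ i / 32)) ∧ blk f g < 2 ^ (10 * 10) ∧ force (blk f g) (fun B =>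
      allBin (fun v => imp (Nat.beq (vm 10 v B) v) (Nat.beq v 0)) 1024 10 0) = true := by decide +kernel

/-- a vector annihilated by the polynomial `f` -/
structure Ty (X f u : ℕ) : Prop where
  mem : f ∈ FL
  lt : u < 1024
  ann : Ψ X u f = 0

section
variable {X : ℕ} (h31 : pw (mm 10) (mo 10) X 31 = mo 10)
include h31

theorem ob_mul {u : ℕ} (hu : u < 1024) (q : ℕ) : ob 10 X u (31 * q) = u := by
  induction q with
  | zero => exact ob_zero n10 X hu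
  | succ q ih => rw [mul_add, ← ob_add, ih, ob, h31, vm_mo n10 hu]

theorem ob_mod {u : ℕ} (hu : u < 1024) (k : ℕ) : ob 10 X u (k % 31) = ob 10 X u k := by
  conv_rhs => rw [← Nat.div_add_mod k 31, ← ob_add, ob_mul h31 hu]

theorem ob_inv {u : ℕ} (hu : u < 1024) (k : ℕ) : ob 10 X (ob 10 X u k) (30 * k) = u := by
  rw [ob_add, show k + 30 * k = 31 * k by ring, ob_mul h31 hu]

theorem Ψ_rot {u : ℕ} (hu : u < 1024) : ∀ p < 2 ^ 31, Ψ X u (vm 31 p (PM 1 1)) = vm 10 (Ψ X u p) X :=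
  Ψ_map fun k hk => by
    rw [(by decide +kernel : ∀ k < 31, vm 31 (2 ^ k) (PM 1 1) = 2 ^ ((k + 1) % 31)) k hk,
      Ψ_pow X u (Nat.mod_lt _ (by norm_num)), ob_mod h31 hu, ob_succ n10]

omit h31 in
theorem Ψ_frb {u H : ℕ} (l : H < 2 ^ (10 * 10)) (e : mm 10 X H = mm 10 H (mm 10 X X))
    (f : vm 10 u H = u) (k : ℕ) : vm 10 (ob 10 X u k) H = ob 10 X u (2 * k) := by
  rw [ob, ← vm_mm n10, tw_pow n10 l e, vm_mm n10, f, ← pw_two, ob]

theorem Ψ_mul {u e : ℕ} (hu : u < 1024) (he : e < 2 ^ 31) : ∀ p < 2 ^ 31, Ψ X (Ψ X u e) p = Ψ X u (pm p e) := by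
  have k : ∀ k, ob 10 X (Ψ X u e) k = Ψ X u (ob 31 (PM 1 1) e k) := fun k => by
    induction k with
    | zero => rw [ob_zero n10 X (Ψ_lt _ _ _), ob_zero (by norm_num) _ he]
    | succ k ih => rw [ob_succ n10, ob_succ (by norm_num), Ψ_rot h31 hu _ (ob_lt _ _ _ _), ih]
  simp only [pm, force_eq]
  exact xor_ind (by rw [vm_zero, Ψ_zero, Ψ_zero])
    (fun i hi => by rw [Ψ_pow _ _ hi, k, vm_pow hi, pkc_eq, fld_pk (by norm_num) (fun k _ => ob_lt _ _ _ _) hi])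
    fun a _ b _ p q => by rw [vm_xor, Ψ_xor, Ψ_xor, p, q]

theorem ty_e {u : ℕ} (hu : u < 1024) : ∀ d ∈ EL, Ty X d.1 (Ψ X u d.2) := fun d hd => by
  obtain ⟨a, b, c, e, -⟩ := chk_EL d hd
  exact ⟨a, Ψ_lt _ _ _, by rw [Ψ_mul h31 hu b _ c, e, Ψ_zero]⟩

omit h31 in
theorem dec {P : ℕ → Prop} (hP : ∀ a b, P a → P b → P (a ^^^ b)) {u : ℕ} (hu : u < 1024)
    (h0 : Ψ X u 2147483647 = 0) (h : ∀ d ∈ EL, P (Ψ X u d.2)) : P u := by
  simp only [EL, List.forall_mem_cons] at h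
  obtain ⟨a, b, c, d, e, f, -⟩ := h
  have := hP _ _ (hP _ _ (hP _ _ (hP _ _ (hP _ _ a b) c) d) e) f
  rwa [← Nat.zero_xor (_ ^^^ _), ← h0, ← Ψ_xor, ← Ψ_xor, ← Ψ_xor, ← Ψ_xor, ← Ψ_xor, ← Ψ_xor, (by decide +kernel :
    2147483647 ^^^ (377253537 ^^^ 91635305 ^^^ 319508959 ^^^ 1754629943 ^^^ 1826728215 ^^^ 2072694985) = 1),
    Ψ_one X hu] at this

namespace Ty
variable {f u : ℕ} (t : Ty X f u)
include t

theorem step {r : ℕ} (hr : r < 32) : vm 10 (Ψ X u r) X = Ψ X u (nx f r) := by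
  rw [← Ψ_rot h31 t.lt r (hr.trans (by norm_num))]
  rcases ((chk_nx f t.mem).1 r hr).2 with e | e <;> rw [e]
  rw [Ψ_xor, t.ann, Nat.xor_zero]

theorem ob_eq (k : ℕ) : it f k < 32 ∧ ob 10 X u k = Ψ X u (it f k) := by
  induction k with
  | zero => exact ⟨(by norm_num : 1 < 32), (ob_zero n10 X t.lt).trans (Ψ_one X t.lt).symm⟩
  | succ k ih => exact ⟨((chk_nx f t.mem).1 _ ih.1).1, by rw [ob_succ n10, ih.2, t.step h31 ih.1]; rfl⟩

theorem ex {r : ℕ} (hr : r < 32) (h0 : r ≠ 0) : ∃ k, Ψ X u r = ob 10 X u k := by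
  obtain ⟨k, -, rfl⟩ := ((chk_nx f t.mem).2 r hr).resolve_left h0
  exact ⟨k, (t.ob_eq h31 k).2.symm⟩

theorem two {g w : ℕ} (s : Ty X g w) (u0 : u ≠ 0) (w0 : w ≠ 0) (n : ∀ k, ob 10 X u k ≠ w) :
    ∃ P P', mm 10 P P' = mo 10 ∧ mm 10 P' P = mo 10 ∧ vm 10 1 P = u ∧ vm 10 32 P = w ∧
      mm 10 P (mm 10 X P') = blk f g := by
  obtain ⟨P, lP, e⟩ := exists_mat n10 (f := fun c => Ψ X u (c % 32) ^^^ Ψ X w (c / 32))
    (fun c _ => x10 (Ψ_lt _ _ _) (Ψ_lt _ _ _)) fun a _ b _ => by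
      rw [Nat.xor_mod_two_pow (n := 5), Nat.xor_div_two_pow (n := 5), Ψ_xor, Ψ_xor, xor4]
  have z : ∀ {u k}, u < 1024 → ob 10 X u k = 0 → u = 0 := fun {u k} hu q => by
    rw [← ob_inv h31 hu k, q, ob_z]
  obtain ⟨P', a, b⟩ := exists_inv n10 lP fun c hc q => by
    have q := Nat.eq_of_xor_eq_zero ((e c hc).symm.trans q)
    have l1 : c % 32 < 32 := Nat.mod_lt _ (by norm_num)
    have l2 : c / 32 < 32 := by omega
    by_cases p1 : c % 32 = 0 <;> by_cases p2 : c / 32 = 0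
    · omega
    · obtain ⟨k, m⟩ := s.ex h31 l2 p2
      rw [p1, Ψ_zero, m] at q
      exact absurd (z s.lt q.symm) w0
    · obtain ⟨k, m⟩ := t.ex h31 l1 p1
      rw [p2, Ψ_zero, m] at q
      exact absurd (z t.lt q) u0
    · obtain ⟨k, m⟩ := s.ex h31 l2 p2
      obtain ⟨j, m'⟩ := t.ex h31 l1 p1
      exact absurd (by rw [← ob_add, ← m', q, m, ob_inv h31 s.lt]) (n (j + 30 * k))
  obtain ⟨c1, c2, -⟩ := chk_blk f t.mem g s.mem
  refine ⟨P, P', a, b, by simpa [Ψ_zero, Ψ_one X t.lt] using e 1 (by norm_num),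
    by simpa [Ψ_zero, Ψ_one X s.lt] using e 32 (by norm_num), ?_⟩
  rw [← mm_assoc n10, eq_of_fld n10 (mm_lt n10 P X) (mm_lt n10 (blk f g) P) fun i hi => ?_, mm_assoc n10, a,
    mm_mo n10 c2]
  have l : 2 ^ i < 2 ^ 10 := Nat.pow_lt_pow_right one_lt_two hi
  rw [fld_mm n10 hi, fld_mm n10 hi, e _ (fld_lt _ _ _), (c1 i hi).1, (c1 i hi).2, ← vm_pow hi, e _ l, vm_xor,
    t.step h31 (Nat.mod_lt _ (by norm_num)), s.step h31 (by omega)]

end Ty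

end

theorem fix5 {B : ℕ} (h : pw (mm 10) (mo 10) B 5 = mo 10) (w : ℕ) : ∃ v < 1024, vm 10 v B = v ∧ v ≠ 0 ∧ v ≠ w := by
  have : Fact (Nat.Prime 5) := ⟨by norm_num⟩
  let F : Function.End (Fin 1024) := fun c => ⟨vm 10 c B, v10 _ _⟩
  have e : ∀ k (c : Fin 1024), ((F ^ k) c : ℕ) = vm 10 c (pw (mm 10) (mo 10) B k) := fun k c => by
    induction k with
    | zero => rw [pw_zero, vm_mo n10 c.2]; rfl
    | succ k ih => rw [pw_succ, vm_mm n10, ← ih, pow_succ']; rfl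
  have := Equiv.Perm.card_fixedPoints_modEq (f := F) (p := 5) (n := 1)
    (funext fun c => Fin.ext (by rw [pow_one, e, h, vm_mo n10 c.2]; rfl))
  by_contra q
  push Not at q
  have h1 : ∀ [Fintype (Function.fixedPoints F)], Fintype.card (Function.fixedPoints F) ≤ 2 := fun {_} =>
    (Fintype.card_le_of_injective (fun c : Function.fixedPoints F => decide (c.1.1 = 0)) fun a b k =>
      Subtype.ext (Fin.ext (by
        by_cases p : a.1.1 = 0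
        · simpa [p, eq_comm] using k
        · have p' : b.1.1 ≠ 0 := by simpa [p] using k
          rw [q _ a.1.2 (congrArg Fin.val a.2) p, q _ b.1.2 (congrArg Fin.val b.2) p']))).trans (by simp)
  have h2 := h1
  rw [Fintype.card_fin, Nat.ModEq] at this
  omega

section
variable {X T : ℕ} (h31 : pw (mm 10) (mo 10) X 31 = mo 10)
include h31

theorem fpf (hT : mm 10 T T = mo 10) (h5 : pw (mm 10) (mo 10) (mm 10 X T) 5 = mo 10)
    (irr : ∀ P : ℕ → Prop, P 0 → (∀ a b, P a → P b → P (a ^^^ b)) → (∀ a < 1024, P a → P (vm 10 a X)) →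
      (∀ a < 1024, P a → P (vm 10 a T)) → (∀ v < 1024, P v → v = 0) ∨ ∀ v < 1024, P v) :
    ∀ v < 1024, vm 10 v X = v → v = 0 := fun v lv ev => by_contra fun v0 => by
  have tt : ∀ a < 1024, vm 10 (vm 10 a T) T = a := fun a ha => by rw [← vm_mm n10, hT, vm_mo n10 ha]
  have dz : ∀ P : ℕ → Prop, (∀ a b, P a → P b → P (a ^^^ b)) → (∀ f u, Ty X f u → P u) →
      ∀ y < 1024, P (y ^^^ vm 10 y X) := fun P p1 p2 y ly => by
    have e : y ^^^ vm 10 y X = Ψ X y 3 := by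
      rw [show 3 = 2 ^ 0 ^^^ 2 ^ 1 from rfl, Ψ_xor, Ψ_pow _ _ (by norm_num), Ψ_pow _ _ (by norm_num), ob_succ n10,
        ob_zero n10 X ly]
    rw [e]
    exact dec p1 (Ψ_lt _ _ _) (by rw [Ψ_mul h31 ly (by norm_num) _ (by norm_num), (by decide +kernel :
      pm 2147483647 3 = 0), Ψ_zero]) fun d hd => p2 _ _ (ty_e h31 (Ψ_lt _ _ _) d hd)
  obtain ⟨y, ly, ey, y0, -⟩ := fix5 h5 0
  have e1 : vm 10 y T = vm 10 y X := by
    conv_lhs => rw [← ey, vm_mm n10, tt _ (v10 _ _)]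
  by_cases z0 : y ^^^ vm 10 y X = 0
  · have e2 := (Nat.eq_of_xor_eq_zero z0).symm
    rcases irr (fun a => a = 0 ∨ a = y) (.inl rfl) (by rintro _ _ (rfl | rfl) (rfl | rfl) <;> simp)
      (by rintro _ - (rfl | rfl); exacts [.inl (vm_zero _ _), .inr e2])
      (by rintro _ - (rfl | rfl); exacts [.inl (vm_zero _ _), .inr (e1.trans e2)]) with k | k
    · exact y0 (k y ly (.inr rfl))
    · have := k 1 (by norm_num)
      have := k 2 (by norm_num)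
      omega
  obtain ⟨f, u, t, u0⟩ : ∃ f u, Ty X f u ∧ u ≠ 0 := by
    by_contra q
    push Not at q
    exact z0 (dz (· = 0) (fun a b p r => by rw [p, r]; rfl) q y ly)
  have W := dz (fun a => ∃ r < 32, Ψ X u r = a) (by
    rintro _ _ ⟨a, la, rfl⟩ ⟨b, lb, rfl⟩
    exact ⟨_, Nat.xor_lt_two_pow (n := 5) la lb, Ψ_xor _ _ _ _⟩) fun g w s => by
      by_cases w0 : w = 0
      · exact ⟨0, by norm_num, (Ψ_zero _ _).trans w0.symm⟩
      by_contra q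
      obtain ⟨P, P', a, b, -, -, e⟩ := t.two h31 s u0 w0 fun k m => q ⟨_, (t.ob_eq h31 k).1, m ▸ (t.ob_eq h31 k).2.symm⟩
      have c := (chk_blk f t.mem g s.mem).2.2
      rw [force_eq] at c
      refine v0 ?_
      rw [← vm_mo n10 lv, ← b, vm_mm n10, beq_iff.1 (imp_iff.1 (allBin_spec c le_rfl _ (v10 v P'))
        (beq_iff.2 (by rw [← e, vm_mm n10, ← vm_mm n10 _ P' P, b, vm_mo n10 lv, vm_mm n10, ev]))), vm_zero]
  have cl : ∀ a b, (∃ r < 32, ∃ s < 32, Ψ X u r ^^^ vm 10 (Ψ X u s) T = a) →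
      (∃ r < 32, ∃ s < 32, Ψ X u r ^^^ vm 10 (Ψ X u s) T = b) →
      ∃ r < 32, ∃ s < 32, Ψ X u r ^^^ vm 10 (Ψ X u s) T = a ^^^ b := by
    rintro _ _ ⟨a, la, b, lb, rfl⟩ ⟨c, lc, d, ld, rfl⟩
    exact ⟨_, Nat.xor_lt_two_pow (n := 5) la lc, _, Nat.xor_lt_two_pow (n := 5) lb ld, by
      rw [Ψ_xor, Ψ_xor, vm_xor, xor4]⟩
  have z : ∀ r, Ψ X u r ^^^ vm 10 (Ψ X u 0) T = Ψ X u r := fun r => by rw [Ψ_zero, vm_zero, Nat.xor_zero]
  rcases irr (fun a => ∃ r < 32, ∃ s < 32, Ψ X u r ^^^ vm 10 (Ψ X u s) T = a)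
    ⟨0, by norm_num, 0, by norm_num, (z 0).trans (Ψ_zero _ _)⟩ cl (fun a ha p => by
      obtain ⟨r, lr, e⟩ := W a ha
      have := cl _ _ p ⟨r, lr, 0, by norm_num, (z r).trans e⟩
      rwa [Nat.xor_xor_cancel_left] at this) (by
      rintro _ - ⟨a, la, b, lb, rfl⟩
      exact ⟨b, lb, a, la, by rw [vm_xor, tt _ (Ψ_lt _ _ _), Nat.xor_comm]⟩) with k | k
  · exact u0 (k u t.lt ⟨1, by norm_num, 0, by norm_num, (z 1).trans (Ψ_one X t.lt)⟩)
  obtain ⟨r, lr, e⟩ := W y ly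
  have := ((Fintype.bijective_iff_surjective_and_card fun c : Fin 32 × Fin 32 => (⟨Ψ X u c.1 ^^^ vm 10 (Ψ X u c.2) T,
    x10 (Ψ_lt _ _ _) (v10 _ _)⟩ : Fin 1024)).2 ⟨fun c => by
      obtain ⟨a, la, b, lb, q⟩ := k c c.2
      exact ⟨(⟨a, la⟩, ⟨b, lb⟩), Fin.ext q⟩, by simp⟩).1 (a₁ := (⟨r, lr⟩, ⟨r, lr⟩)) (a₂ := (0, 0)) (Fin.ext (by
    change Ψ X u r ^^^ vm 10 (Ψ X u r) T = Ψ X u 0 ^^^ vm 10 (Ψ X u 0) T
    rw [z, Ψ_zero, e, vm_xor, ← e1, tt y ly, Nat.xor_comm y, Nat.xor_self]))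
  rw [show r = 0 from congrArg (·.1.1) this, Ψ_zero] at e
  exact z0 e.symm

theorem norm {H : ℕ} (l : H < 2 ^ (10 * 10)) (e : mm 10 X H = mm 10 H (mm 10 X X))
    (h5 : pw (mm 10) (mo 10) H 5 = mo 10) (fp : ∀ v < 1024, vm 10 v X = v → v = 0) :
    ∃ f ∈ FL, ∃ g ∈ FL, ∃ P P', mm 10 P P' = mo 10 ∧ mm 10 P' P = mo 10 ∧ vm 10 (vm 10 1 P) H = vm 10 1 P ∧
      vm 10 (vm 10 32 P) H = vm 10 32 P ∧ mm 10 P (mm 10 X P') = blk f g := by
  obtain ⟨f, u, g, w, t, s, a, b, u0, w0, n⟩ : ∃ f u g w, Ty X f u ∧ Ty X g w ∧ vm 10 u H = u ∧ vm 10 w H = w ∧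
      u ≠ 0 ∧ w ≠ 0 ∧ u ≠ w := by
    by_contra q
    push Not at q
    obtain ⟨w, hw⟩ : ∃ w, ∀ f u, Ty X f u → vm 10 u H = u → u = 0 ∨ u = w := by
      by_cases k : ∃ g w, Ty X g w ∧ vm 10 w H = w ∧ w ≠ 0
      · obtain ⟨g, w, s, b, w0⟩ := k
        exact ⟨w, fun f u t a => or_iff_not_imp_left.2 fun u0 => q f u g w t s a b u0 w0⟩
      · push Not at k
        exact ⟨0, fun f u t a => .inl (k f u t a)⟩
    obtain ⟨v, lv, ev, v0, vw⟩ := fix5 h5 w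
    refine (dec (X := X) (P := fun a => a = 0 ∨ a = w) (by rintro _ _ (rfl | rfl) (rfl | rfl) <;> simp) lv
      (fp _ (Ψ_lt _ _ _) ?_) fun d hd => hw _ _ (ty_e h31 lv d hd) ?_).elim v0 vw
    · rw [← Ψ_rot h31 lv _ (by norm_num), (by decide +kernel : vm 31 2147483647 (PM 1 1) = 2147483647)]
    · obtain ⟨-, c, -, -, c'⟩ := chk_EL d hd
      rw [← Ψ_map (M := PM 2 0) (fun k hk => by
        rw [(by decide +kernel : ∀ k < 31, vm 31 (2 ^ k) (PM 2 0) = 2 ^ (2 * k % 31)) k hk,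
          Ψ_pow X v (Nat.mod_lt _ (by norm_num)), ob_mod h31 lv, Ψ_frb l e ev]) _ c, c']
  obtain ⟨P, P', p1, p2, p3, p4, p5⟩ := t.two h31 s u0 w0 fun k m => n (by
    have := Ψ_frb l e a k
    rw [m, b, two_mul, ← ob_add, m] at this
    exact (ob_inv h31 t.lt k).symm.trans ((congrArg (ob 10 X · (30 * k)) (m.trans this)).trans (ob_inv h31 s.lt k)))
  exact ⟨f, t.mem, g, s.mem, P, P', p1, p2, p3 ▸ a, p4 ▸ b, p5⟩

end

end CF.RG.Id
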