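import Cfsg.Agent.RG.B2

/-! The pairs of matrices. -/

set_option autoImplicit false
set_option maxRecDepth 1000000

namespace CF.RG.Id
open CF.Comp CF.Dce CF.Comp.Mat CF.J4 CF.JP CF.RF

theorem split {T : ℕ} (l : T < 2 ^ (10 * 10)) :
    T = ((fld 40 T 0 ^^^ fld 40 T 1 <<< 40) ^^^ fld 10 T 8 <<< 80) ^^^ fld 10 T 9 <<< 90 :=
  Nat.eq_of_testBit_eq fun i => by
    simp only [Nat.testBit_xor, Nat.testBit_shiftLeft, testBit_fld]
    by_cases a : i < 40
    · simp [a, show ¬ 40 ≤ i by omega, show ¬ 80 ≤ i by omega, show ¬ 90 ≤ i by omega]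
    by_cases b : i < 80
    · simp [a, show 40 ≤ i by omega, show ¬ 80 ≤ i by omega, show ¬ 90 ≤ i by omega, show i - 40 < 40 by omega]
    by_cases c : i < 90
    · simp [a, show 80 ≤ i by omega, show ¬ 90 ≤ i by omega, show ¬ i - 40 < 40 by omega, show i - 80 < 10 by omega]
    by_cases d : i < 100
    · simp [a, show 90 ≤ i by omega, show ¬ i - 40 < 40 by omega, show ¬ i - 80 < 10 by omega,
        show i - 90 < 10 by omega]
    · simp [a, show ¬ i - 40 < 40 by omega, show ¬ i - 80 < 10 by omega, show ¬ i - 90 < 10 by omega,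
        Nat.testBit_lt_two_pow (l.trans_le (Nat.pow_le_pow_right two_pos (not_lt.1 d)))]

theorem vm_shl {k : ℕ} (hk : 80 ≤ k) (t : ℕ) : ∀ c < 2 ^ 8, vm 10 c (t <<< k) = 0 :=
  xor_ind (vm_zero _ _) (fun i hi => by
    rw [vm_pow (by omega)]
    refine Nat.eq_of_testBit_eq fun r => ?_
    rw [testBit_fld, Nat.testBit_shiftLeft, Nat.zero_testBit]
    by_cases q : r < 10
    · simp [show ¬ k ≤ 10 * i + r by omega]
    · simp [q]) fun a _ b _ p q => by rw [vm_xor, p, q]; rfl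

theorem rw4_lt (w : ℕ) : rw4 w < 2 ^ 40 := by
  rw [rw4, force_eq, pkc_eq]; exact pk_lt n10 fun k _ => ob_lt _ _ _ _

theorem tau {X T : ℕ} (hX : X ∈ XL) (l : T < 2 ^ (10 * 10)) (e : mm 10 H0 T = mm 10 T H4) (hT : mm 10 T T = mo 10)
    (h5 : pw (mm 10) (mo 10) (mm 10 X T) 5 = mo 10) : out X T = true := by
  have t := tw_pow n10 l e
  have r : ∀ j < 2, fld 40 T j = rw4 (vm 10 (2 ^ (4 * j)) T) := fun j hj =>
    eq_of_fld (m := 4) n10 (fld_lt _ _ _) (rw4_lt _) fun k hk => by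
      rw [rw4, force_eq, pkc_eq, fld_pk n10 (fun k _ => ob_lt _ _ _ _) hk, ob, ← vm_mm n10, ← t, vm_mm n10,
        (by decide +kernel : ∀ j < 2, ∀ k < 4, vm 10 (2 ^ (4 * j)) (pw (mm 10) (mo 10) H0 k) = 2 ^ (4 * j + k)) j hj k hk,
        vm_pow (by omega)]
      refine Nat.eq_of_testBit_eq fun i => ?_
      rw [testBit_fld, testBit_fld, testBit_fld, show 40 * j + (10 * k + i) = 10 * (4 * j + k) + i by ring]
      by_cases q : i < 10
      · simp [show 10 * k + i < 40 by omega]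
      · simp [q]
  have n : ∀ v < 1024, vm 10 v T &&& 768 = vm 10 (v &&& 768) T := fun v hv => by
    have k : ∀ B ∈ [H0, H4], ∀ v < 1024, ob 10 B v 0 ^^^ ob 10 B v 1 ^^^ ob 10 B v 2 ^^^ ob 10 B v 3 ^^^ ob 10 B v 4 =
        v &&& 768 := fun B hB => xor_ind (n := 10) (by simp [ob_z])
      ((by decide +kernel : ∀ B ∈ [H0, H4], ∀ i < 10, ob 10 B (2 ^ i) 0 ^^^ ob 10 B (2 ^ i) 1 ^^^ ob 10 B (2 ^ i) 2 ^^^
        ob 10 B (2 ^ i) 3 ^^^ ob 10 B (2 ^ i) 4 = 2 ^ i &&& 768) B hB) fun a _ b _ p q => by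
        rw [Nat.and_xor_distrib_right, ← p, ← q]
        simp only [ob, vm_xor]
        ac_rfl
    rw [← k H0 (by simp) v hv, ← k H4 (by simp) _ (v10 v T)]
    simp only [ob, vm_xor, ← vm_mm n10, t]
  have b : ∀ v < 1024, (v &&& 768 = 0 → v < 256) ∧ (v &&& 768 = v → v ∈ [0, 256, 512, 768]) := by decide +kernel
  have l1 := (b _ (v10 1 T)).1 ((n 1 (by norm_num)).trans (vm_zero _ _))
  have l2 := (b _ (v10 16 T)).1 ((n 16 (by norm_num)).trans (vm_zero _ _))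
  have m1 := (b _ (v10 256 T)).2 (n 256 (by norm_num))
  have m2 := (b _ (v10 512 T)).2 (n 512 (by norm_num))
  have s := split l
  rw [r 0 two_pos, r 1 one_lt_two, ← vm_pow (by norm_num), ← vm_pow (by norm_num)] at s
  change T = ((rw4 (vm 10 1 T) ^^^ rw4 (vm 10 16 T) <<< 40) ^^^ vm 10 256 T <<< 80) ^^^ vm 10 512 T <<< 90 at s
  have f : ∀ v < 1024, vm 10 v T < 256 → vm 10 (vm 10 v T) (rw4 (vm 10 1 T) ^^^ rw4 (vm 10 16 T) <<< 40) = v :=
    fun v hv lv => by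
      have := (vm_mm n10 v T T).symm.trans (hT ▸ vm_mo n10 hv)
      generalize vm 10 v T = a at this lv
      rwa [s, vm_xor', vm_xor', vm_shl le_rfl _ _ lv, vm_shl (by norm_num) _ _ lv, Nat.xor_zero, Nat.xor_zero] at this
  obtain ⟨q, c, lq, eq⟩ : ∃ q, tauOK q = true ∧ vm 10 1 T % 64 < 64 ∧ q + vm 10 1 T % 64 = vm 10 1 T := by
    have : vm 10 1 T / 64 = 0 ∨ vm 10 1 T / 64 = 1 ∨ vm 10 1 T / 64 = 2 ∨ vm 10 1 T / 64 = 3 := by omega
    rcases this with q | q | q | q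
    exacts [⟨0, chk_tau0, by omega⟩, ⟨64, chk_tau1, by omega⟩, ⟨128, chk_tau2, by omega⟩, ⟨192, chk_tau3, by omega⟩]
  simp only [tauOK, force_eq] at c
  have c1 := allBin_spec (allBin_spec c le_rfl _ lq) le_rfl _ l2
  rw [show Nat.add q (vm 10 1 T % 64) = _ from eq, gx_pkc (by norm_num) (fun k _ => rw4_lt k) l1,
    gx_pkc (by norm_num) (fun k _ => rw4_lt k) l2, fm_vm, fm_vm] at c1
  have c2 := lall_iff.1 (lall_iff.1 (imp_iff.1 (imp_iff.1 c1 (beq_iff.2 (f 1 (by norm_num) l1)))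
    (beq_iff.2 (f 16 (by norm_num) l2))) _ m1) _ m2
  rw [force_eq, show Nat.xor (Nat.xor (Nat.xor (rw4 (vm 10 1 T)) (Nat.shiftLeft (rw4 (vm 10 16 T)) 40))
    (Nat.shiftLeft (vm 10 256 T) 80)) (Nat.shiftLeft (vm 10 512 T) 90) = T from s.symm, m0_eq, hT] at c2
  have o : mo 10 = nat_lit 634134936313486520338360567809 := by decide +kernel
  have c3 := lall_iff.1 (imp_iff.1 c2 (beq_iff.2 o)) X hX
  simp only [leaf, force_eq, m0_eq] at c3
  refine imp_iff.1 c3 (beq_iff.2 (Eq.trans ?_ (h5.trans o)))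
  have y := mm_lt n10 X T
  generalize mm 10 X T = Y at y
  rw [pw_succ, pw_succ, pw_succ, pw_succ, pw_succ, pw_zero, mo_mm n10 y, mm_assoc n10 (mm 10 Y Y) Y Y]

end CF.RG.Id
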