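import Cfsg.Agent.RG.B3

/-! The irreducible modules of dimension ten of the linear group of degree five over the field of two elements. -/

set_option autoImplicit false
set_option maxRecDepth 1000000

namespace CF.RG.Id
open Cfsg Subgroup CF.Loc CF.LX CF.Comp CF.Dce CF.Comp.Mat CF.J4 CF.JP CF.RF

/-- the linear group -/
abbrev SL5 : Type := Matrix.SpecialLinearGroup (Fin 5) (ZMod 2)

/-- the two generators -/
noncomputable def φ0 : ℕ → SL5 := evs Held.fL wP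

theorem eq1 {u w : List ℕ} (h : Held.evc (subst wP u) = Held.evc w) : ev φ0 u = ev Held.fL w := by
  rw [φ0, ev_evs]; exact Subtype.ext (by rw [Held.ev_fL, Held.ev_fL, h])

theorem eq0 {u w : List ℕ} (h : Held.evc (subst wP u) = Held.evc (subst wP w)) : ev φ0 u = ev φ0 w :=
  (eq1 h).trans (eq1 rfl).symm

variable {G : Type*} [Group G]

/-- the module with coordinates and the map onto the linear group -/
structure F1 (A : Subgroup G) (ν : G → ℕ) (θ : G → SL5) (f : ℕ → G) : Prop where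
  co : Co 10 A ⊥ ν
  cen : 𝐂(A) ≤ A
  hom : HomOn 𝐍(A) θ
  ker : ∀ g ∈ 𝐍(A), (θ g = 1 ↔ g ∈ A)
  card : Nat.card 𝐍(A) = 9999360 * 1024
  simp : ∀ K : Subgroup G, 𝐍(A) ≤ 𝐍(K) → A ≤ K → K ⊓ 𝐍(A) ≤ A ∨ 𝐍(A) ≤ K
  irr : ∀ W, W ≤ A → 𝐍(A) ≤ 𝐍(W) → W = ⊥ ∨ W = A
  mem : ∀ i, f i ∈ 𝐍(A)
  ph : ∀ i, θ (f i) = φ0 i
  one : ∀ i, 2 ≤ i → f i = 1

/-- the words give the generators of the linear group -/
def GenW (ws : List (List ℕ)) : Prop := ∀ j < 8, ∃ i < 8, Held.evc (subst wP (nth [] ws i)) = Held.evc [2 * j + 1]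

theorem genA : GenW wA := by unfold GenW; decide +kernel

theorem genB : GenW wB := by unfold GenW; decide +kernel

/-- the checks for an irreducible case -/
def FinOK (d L : List ℕ) (ws : List (List ℕ)) : Prop := mm 10 (nth 0 d 2) (nth 0 d 3) = mo 10 ∧
  mm 10 (nth 0 d 3) (nth 0 d 2) = mo 10 ∧ mm 10 (nth 0 d 3) (mm 10 (nth 0 d 0) (nth 0 d 2)) = nth (mo 10) L 1 ∧
  mm 10 (nth 0 d 3) (mm 10 (nth 0 d 1) (nth 0 d 2)) = nth (mo 10) L 3 ∧
  tabOK (mm 10) (mo 10) (fun _ => true) L 2 = true ∧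
  wtOK (mm 10) (mo 10) (fun _ => true) (nth (mo 10) L) ws LW = true

theorem finA : FinOK dA LA wA := by unfold FinOK; decide +kernel

theorem finB : FinOK dB LB wB := by unfold FinOK; decide +kernel

namespace F1
variable {A : Subgroup G} {ν : G → ℕ} {θ : G → SL5} {f : ℕ → G} (h : F1 A ν θ f)
include h

theorem ex {g : G} (hg : g ∈ 𝐍(A)) : ∃ x < 2 ^ (10 * 10), Ac 10 A ν g x :=
  h.co.ex hg (by rw [normalizer_eq_top]; trivial)

theorem chg {g g' : ℕ} (h1 : mm 10 g g' = mo 10) (h2 : mm 10 g' g = mo 10) : F1 A (fun a => vm 10 (ν a) g) θ f :=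
  { h with co := h.co.change h1 h2 }

theorem ev0 (w : List ℕ) : θ (ev f w) = ev φ0 w := h.hom.ev' h.mem h.ph w

theorem rel {a b : G} {x y : ℕ} (ha : Ac 10 A ν a x) (hb : Ac 10 A ν b y) (lx : x < 2 ^ (10 * 10))
    (ly : y < 2 ^ (10 * 10)) {u w : List ℕ} (e : Held.evc (subst wP u) = Held.evc (subst wP w)) (ea : ev f u = a)
    (eb : ev f w = b) : x = y := by
  have := h.co.cd.mul' ha (h.co.ac_self ((h.ker _ (mul_mem (inv_mem ha.1) hb.1)).1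
    (by rw [h.hom _ (inv_mem ha.1) _ hb.1, h.hom.inv ha.1, ← ea, ← eb, h.ev0, h.ev0, eq0 e, inv_mul_cancel])))
  rw [mul_inv_cancel_left, mm_mo n10 lx] at this
  exact h.co.uniq' this hb lx ly

theorem relp {a : G} {x k : ℕ} (ha : Ac 10 A ν a x) {u : List ℕ}
    (e : Held.evc (subst wP (wpow u (k + 1))) = Held.evc (subst wP [])) (ea : ev f u = a) :
    pw (mm 10) (mo 10) x (k + 1) = mo 10 :=
  h.rel (h.co.cd.pow ha _) h.co.cd.one' (pw_succ _ _ _ k ▸ mm_lt n10 _ _) (mo_lt n10) e (by rw [ev_wpow, ea]) rfl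

theorem gen {ws : List (List ℕ)} (c : GenW ws) : 𝐍(A) ≤ clo (evs f ws) (gensW 8) ⊔ A := fun n hn => by
  have l : clo (evs f ws) (gensW 8) ≤ 𝐍(A) := clo_le.2 fun w _ => ev_mem (fun _ => ev_mem h.mem _) w
  obtain ⟨s, hs, e⟩ := h.hom.mem_im.1 ((Held.fL_top.ge.trans (clo_le.2 fun w hw => by
    obtain ⟨j, hj, rfl⟩ := (by decide : ∀ w ∈ gensW 8, ∃ j < 8, w = [2 * j + 1]) w hw
    obtain ⟨i, hi, e⟩ := c j hj
    exact h.hom.mem_im.2 ⟨_, ev_mem_clo _ (mem_gensW hi), by rw [ev_single, evs, h.ev0, eq1 e]⟩) :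
      ⊤ ≤ h.hom.im _ l) (mem_top (θ n)))
  simpa using mul_mem_sup hs ((h.ker _ (mul_mem (inv_mem (l hs)) hn)).1
    (by rw [h.hom _ (inv_mem (l hs)) _ hn, h.hom.inv (l hs), e, inv_mul_cancel]))

theorem irr' [Finite G] {X T : ℕ} (a : Ac 10 A ν (f 0) X) (b : Ac 10 A ν (f 1) T) (P : ℕ → Prop) (p0 : P 0)
    (p1 : ∀ a b, P a → P b → P (a ^^^ b)) (p2 : ∀ a < 1024, P a → P (vm 10 a X))
    (p3 : ∀ a < 1024, P a → P (vm 10 a T)) : (∀ v < 1024, P v → v = 0) ∨ ∀ v < 1024, P v := by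
  let W : Subgroup G :=
    { carrier := {g | g ∈ A ∧ P (ν g)}
      one_mem' := ⟨one_mem A, h.co.one ▸ p0⟩
      mul_mem' := fun {a b} ha hb => ⟨mul_mem ha.1 hb.1, h.co.mul a ha.1 b hb.1 ▸ p1 _ _ ha.2 hb.2⟩
      inv_mem' := fun {a} ha => ⟨inv_mem ha.1, (h.co.inv ha.1).symm ▸ ha.2⟩ }
  have k : ∀ g x, Ac 10 A ν g x → (∀ a < 1024, P a → P (vm 10 a x)) → g ∈ 𝐍(W) := fun g x c p =>
    inv_mem_iff.1 (mem_normalizer_of_conj_mem fun w hw => by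
      rw [inv_inv]; exact ⟨norm_mem c.1 hw.1, c.2 w hw.1 ▸ p _ (h.co.lt w hw.1) hw.2⟩)
  refine (h.irr W (fun _ a => a.1) ((h.gen genA).trans (sup_le (clo_le.2 fun w _ => ev_mem (fun _ =>
    ev_mem (fun i => ?_) _) w) fun c hc => k c _ (h.co.ac_self hc) fun a ha p => (vm_mo n10 ha).symm ▸ p))).imp
    (fun e v hv p => ?_) fun e v hv => ?_
  · obtain rfl | rfl | l : i = 0 ∨ i = 1 ∨ 2 ≤ i := by omega
    exacts [k _ _ a p2, k _ _ b p3, h.one i l ▸ one_mem _]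
  · obtain ⟨c, hc, rfl⟩ := h.co.surj v hv
    exact (h.co.ker c hc).2 (e.le ⟨hc, p⟩)
  · obtain ⟨c, hc, rfl⟩ := h.co.surj v hv
    exact (e.ge hc).2

theorem fin {d L : List ℕ} {ws : List (List ℕ)} (c : FinOK d L ws) (g : GenW ws) (a : Ac 10 A ν (f 0) (nth 0 d 0))
    (b : Ac 10 A ν (f 1) (nth 0 d 1)) : ∃ ν f, Gn A ν f := by
  obtain ⟨c1, c2, c3, c4, c5, c6⟩ := c
  have C := h.co.change c1 c2
  refine ⟨_, _, C, h.cen, C.cd.tb_evs (C.cd.tb c5 (fun i hi => ?_) h.one) c6, h.gen g, h.card, h.simp⟩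
  obtain rfl | rfl : i = 0 ∨ i = 1 := by omega
  exacts [c3 ▸ h.co.ac_change c1 a, c4 ▸ h.co.ac_change c1 b]

theorem two {T : ℕ} (b : Ac 10 A ν (f 1) T) : mm 10 T T = mo 10 :=
  h.rel (h.co.cd.mul' b b) h.co.cd.one' (mm_lt n10 _ _) (mo_lt n10) (u := [3, 3]) (w := []) (by decide +kernel)
    (by simp [evL]) rfl

theorem five {X T : ℕ} (a : Ac 10 A ν (f 0) X) (b : Ac 10 A ν (f 1) T) : pw (mm 10) (mo 10) (mm 10 X T) 5 = mo 10 :=
  h.relp (h.co.cd.mul' a b) (u := [1, 3]) (by decide +kernel) (by simp [evL])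

theorem xh {X H : ℕ} (a : Ac 10 A ν (f 0) X) (b : Ac 10 A ν (ev f wH) H) : mm 10 X H = mm 10 H (mm 10 X X) :=
  h.rel (h.co.cd.mul' a b) (h.co.cd.mul' b (h.co.cd.mul' a a)) (mm_lt n10 _ _) (mm_lt n10 _ _) (u := 1 :: wH)
    (w := lapp wH [1, 1]) (by decide +kernel) (by simp [evL]) (by simp [ev_lapp, evL])

theorem last [Finite G] {X : ℕ} (hX : X ∈ XL) (a : Ac 10 A ν (f 0) X) (c : Ac 10 A ν (ev f wH) H0) :
    ∃ ν f, Gn A ν f := by
  obtain ⟨T, l, b⟩ := h.ex (h.mem 1)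
  rcases brec_or.1 (tau hX l (h.rel (h.co.cd.mul' c b) (h.co.cd.mul' b (h.co.cd.pow c 4)) (mm_lt n10 _ _)
    (mm_lt n10 _ _) (u := lapp wH [3]) (w := 3 :: wpow wH 4) (by decide +kernel) (by simp [ev_lapp, evL])
    (by simp [ev_wpow, evL])) (h.two b) (h.five a b)) with k | k
  · obtain ⟨m, hm, k⟩ := lany_iff.1 k
    have k := fun v hv p => brec_and.1 (imp_iff.1 ((force_eq _ _).symm.trans (allBin_spec k le_rfl v hv)) (beq_iff.2 p))
    obtain ⟨⟨v, lv, v0, e⟩, w, lw, e'⟩ := (by decide +kernel : ∀ m ∈ [752, 271], (∃ v < 1024, v ≠ 0 ∧ v &&& m = 0) ∧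
      ∃ w < 1024, w &&& m ≠ 0) m hm
    exact (h.irr' a b (· &&& m = 0) (Nat.zero_and m) (fun a b p q => by rw [Nat.and_xor_distrib_right, p, q]; rfl)
      (fun v hv p => beq_iff.1 (k v hv p).1) fun v hv p => beq_iff.1 (k v hv p).2).elim
      (fun q => absurd (q v lv e) v0) fun q => absurd (q w lw) e'
  · obtain ⟨d, hd, k⟩ := lany_iff.1 k
    obtain ⟨k1, k2⟩ := brec_and.1 k
    rw [beq_iff] at k1 k2
    rcases List.mem_pair.1 hd with rfl | rfl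
    exacts [h.fin finA genA (k1 ▸ a) (k2 ▸ b), h.fin finB genB (k1 ▸ a) (k2 ▸ b)]

theorem exists_gn [Finite G] : ∃ ν f, Gn A ν f := by
  obtain ⟨X, -, a⟩ := h.ex (h.mem 0)
  obtain ⟨T, -, b⟩ := h.ex (h.mem 1)
  obtain ⟨H, l, c⟩ := h.ex (ev_mem h.mem wH)
  have h31 := h.relp (k := 30) a (u := [1]) (by decide +kernel) (by simp [evL])
  obtain ⟨p, hp, q, hq, P, P', p1, p2, p3, p4, p5⟩ := norm h31 l (h.xh a c)
    (h.relp (k := 4) c (u := wH) (by decide +kernel) rfl) (fpf h31 (h.two b) (h.five a b) (h.irr' a b))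
  obtain ⟨c1, d, -, -, -, d1, d2, d3, d4⟩ := chk_QL p hp q hq
  have h' := h.chg p2 p1
  have a' := p5 ▸ h.co.ac_change p2 a
  have c' := h.co.ac_change p2 c
  have e : mm 10 P (mm 10 H P') = dH (blk p q) := by
    rw [det n10 (mm_lt n10 _ _) (h'.xh a' c') _ _ c1 (mm_mo n10 (mo_lt n10)), dH]
    congr 2; funext i; congr 1
    split_ifs
    · rw [vm_mm n10, vm_mm n10, p3, ← vm_mm n10, p1, vm_mo n10 (by norm_num)]
    · rw [vm_mm n10, vm_mm n10, p4, ← vm_mm n10, p1, vm_mo n10 (by norm_num)]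
  exact (h'.chg d1 d2).last d4 (h'.co.ac_change d1 a') (d3 ▸ h'.co.ac_change d1 (e ▸ c'))

end F1

end CF.RG.Id

namespace CF.RG
open Cfsg Subgroup CF.Loc CF.LX CF.Comp CF.J4 CF.JP CF.RG.Id

theorem ident {G : Type*} [Group G] [Finite G] {A : Subgroup G} (hA : IsElementaryAbelian 2 A)
    (hc : Nat.card A = 2 ^ 10)
    (hL : Nonempty (↥𝐍(A) ⧸ A.subgroupOf 𝐍(A) ≃* Matrix.SpecialLinearGroup (Fin 5) (ZMod 2)))
    (hirr : ∀ W, W ≤ A → 𝐍(A) ≤ 𝐍(W) → W = ⊥ ∨ W = A) : ∃ ν f, Gn A ν f := by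
  classical
  obtain ⟨e⟩ := hL
  obtain ⟨ν, C⟩ := exists_co' (n := 9) (S := A) bot_le (fun _ _ => by rw [normalizer_eq_top]; trivial)
    (fun a ha => by simpa [pow_two] using hA.2 a ha) (by rw [hc, card_bot, mul_one])
  let θ : G → SL5 := fun g => if hg : g ∈ 𝐍(A) then e (QuotientGroup.mk ⟨g, hg⟩) else 1
  have t : ∀ g (hg : g ∈ 𝐍(A)), θ g = e (QuotientGroup.mk ⟨g, hg⟩) := fun g hg => dif_pos hg
  have hom : HomOn 𝐍(A) θ := fun a ha b hb => by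
    rw [t a ha, t b hb, t _ (mul_mem ha hb), ← map_mul, ← QuotientGroup.mk_mul]; rfl
  have ker : ∀ g ∈ 𝐍(A), (θ g = 1 ↔ g ∈ A) := fun g hg => by
    rw [t g hg, e.map_eq_one_iff, QuotientGroup.eq_one_iff, mem_subgroupOf]
  have sur : ∀ σ, ∃ g ∈ 𝐍(A), θ g = σ := fun σ => by
    obtain ⟨g, hg⟩ := QuotientGroup.mk_surjective (e.symm σ)
    exact ⟨g, g.2, by rw [t _ g.2, hg, e.apply_symm_apply]⟩
  have simp : ∀ K : Subgroup G, 𝐍(A) ≤ 𝐍(K) → A ≤ K → K ⊓ 𝐍(A) ≤ A ∨ 𝐍(A) ≤ K := fun K n l => by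
    have := Held.simple_L
    refine (Normal.eq_bot_or_eq_top (H := hom.im (K ⊓ 𝐍(A)) inf_le_right) ⟨fun x hx σ => ?_⟩).imp
      (fun q k hk => (ker k hk.2).1 (q.le (hom.mem_im.2 ⟨k, hk, rfl⟩))) fun q g hg => ?_
    · obtain ⟨k, hk, rfl⟩ := hom.mem_im.1 hx
      obtain ⟨g, hg, rfl⟩ := sur σ
      exact hom.mem_im.2 ⟨_, ⟨norm_mem' (n hg) hk.1, 𝐍(A).mul_mem (𝐍(A).mul_mem hg hk.2) (𝐍(A).inv_mem hg)⟩,
        hom.conj hg hk.2⟩
    · obtain ⟨k, hk, p⟩ := hom.mem_im.1 (q.ge (mem_top (θ g)))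
      simpa using mul_mem hk.1 (l ((ker _ (mul_mem (inv_mem hk.2) hg)).1
        (by rw [hom _ (inv_mem hk.2) _ hg, hom.inv hk.2, p, inv_mul_cancel])))
  have cen : 𝐂(A) ≤ A := by
    have := hA.1
    rcases simp 𝐂(A) (normalizer_le_normalizer_centralizer A) (le_centralizer A) with q | q
    · exact (le_inf le_rfl (centralizer_le_normalizer _)).trans q
    obtain ⟨a, ha, a1⟩ := C.surj 1 (by norm_num)
    have o : Nat.card (zpowers a) ≤ 2 := by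
      rw [Nat.card_zpowers]; exact orderOf_le_of_pow_eq_one two_pos (hA.2 a ha)
    rcases hirr (zpowers a) (zpowers_le.2 ha) (q.trans ((centralizer_le (zpowers_le.2 ha)).trans
      (centralizer_le_normalizer _))) with r | r
    · exact absurd ((C.ker a ha).2 (r.le (mem_zpowers a))) (by omega)
    · rw [r, hc] at o; omega
  choose s s1 s2 using sur
  have k : ∀ i, (if i < 2 then s (φ0 i) else 1) ∈ 𝐍(A) ∧ θ (if i < 2 then s (φ0 i) else 1) = φ0 i := fun i => by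
    split_ifs with hi
    · exact ⟨s1 _, s2 _⟩
    · rw [φ0, evs_ge _ (not_lt.1 hi)]; exact ⟨one_mem _, hom.one⟩
  refine F1.exists_gn (f := fun i => if i < 2 then s (φ0 i) else 1) ⟨C, cen, hom, ker, ?_, simp, hirr,
    fun i => (k i).1, fun i => (k i).2, fun i hi => if_neg (not_lt.2 hi)⟩
  rw [hom.card_eq le_rfl (Z := A) fun g => ⟨fun hg => ⟨le_normalizer hg, (ker g (le_normalizer hg)).2 hg⟩,
    fun p => (ker g p.1).1 p.2⟩, show hom.im 𝐍(A) le_rfl = ⊤ from eq_top_iff.2 fun σ _ =>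
      hom.mem_im.2 ⟨_, s1 σ, s2 σ⟩, card_top, Held.card_L, hc]
  rfl

end CF.RG
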