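import Cfsg.Agent.Chev.CT3
import Cfsg.Agent.Chev.ClsOm
import Cfsg.Agent.CIT.Stein
import Cfsg.Agent.Bt.Xc2
import Cfsg.Agent.Known.Aut.TriMain

/-! Recognition of the orthogonal groups of dimension ten over the field with two elements. -/

set_option autoImplicit false

namespace CF.RG
open Subgroup Cfsg CF.Chev CF.CIT CF.Geom CF.Classical

variable {G : Type*} [Group G]

/-- the model -/
abbrev Om : Type := Omega (ZMod 2) (quadFormPlus 5 (ZMod 2))

/-- the relations of a node -/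
def Nd (a b : G) : Prop := a * a = 1 ∧ b * b = 1 ∧ (a * b) ^ 3 = 1

/-- the relations of an edge -/
def Ed (a b c d : G) : Prop := c * b = b * c ∧ d * a = a * d ∧ (a * c) ^ 2 = a * b * a * c * (a * b * a) ∧
  (a * c) ^ 2 = c * d * c * a * (c * d * c) ∧ (c * d * c * (a * b * a)) ^ 3 = 1

theorem z2 (t : ZMod 2) : t = 0 ∨ t = 1 := by revert t; decide

theorem Nd.facts {a b : G} (h : Nd a b) :
    a * b * a * (a * b * a) = 1 ∧ a * b * a * a * (a * b * a)⁻¹ = b := by
  obtain ⟨h1, h2, h3⟩ := h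
  have e : a * b * a * (a * b * a) = 1 := by
    calc _ = a * (b * (a * a) * b) * a := by group
      _ = 1 := by rw [h1, mul_one, h2, mul_one, h1]
  refine ⟨e, ?_⟩
  rw [inv_eq_of_mul_eq_one_right e]
  calc _ = a * b * (a * a) * (a * b * a) * (b * b) := by rw [h2]; group
    _ = (a * b) ^ 3 * b := by rw [h1, pow_succ, sq]; group
    _ = b := by rw [h3, one_mul]

theorem exists_a2 {a b c d : G} (n : Nd a b) (m : Nd c d) (e : Ed a b c d) :
    ∃ τ : StRep (cbA 2) (ZMod 2) G, ∀ t, τ.x ((cbA 2).simple 0) t = a ^ t.val ∧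
      τ.x ((cbA 2).neg ((cbA 2).simple 0)) t = b ^ t.val ∧ τ.x ((cbA 2).simple 1) t = c ^ t.val ∧
      τ.x ((cbA 2).neg ((cbA 2).simple 1)) t = d ^ t.val := by
  obtain ⟨-, -, e1, e2, e3⟩ := e
  obtain ⟨hw, hb⟩ := n.facts
  obtain ⟨hy, hd⟩ := m.facts
  obtain ⟨aa, -, -⟩ := n
  obtain ⟨cc, -, -⟩ := m
  generalize a * b * a = w at *
  generalize c * d * c = y at *
  have wi := inv_eq_of_mul_eq_one_right hw
  have yi := inv_eq_of_mul_eq_one_right hy
  have hwy : w * y * w = y * w * y := by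
    rw [eq_inv_of_mul_eq_one_right (show y * w * y * (w * y * w) = 1 by rw [← e3, pow_succ, sq]; group)]
    simp [wi, yi, mul_assoc]
  generalize hz : (a * c) ^ 2 = z at *
  have za : y * z * y⁻¹ = a := by rw [e2, yi, ← mul_assoc, ← mul_assoc, hy, mul_assoc, mul_assoc, hy]; simp
  have zc : w * z * w⁻¹ = c := by rw [e1, wi, ← mul_assoc, ← mul_assoc, hw, mul_assoc, mul_assoc, hw]; simp
  have zz : z * z = 1 := by
    calc _ = w⁻¹ * (w * z * w⁻¹ * (w * z * w⁻¹)) * w := by group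
      _ = 1 := by rw [zc, cc]; group
  have zi : c * a * c * a = z := by
    rw [← inv_eq_of_mul_eq_one_right zz, ← hz, eq_inv_iff_mul_eq_one, sq]
    calc _ = c * (a * (c * (a * a) * c) * a) * c := by group
      _ = 1 := by rw [aa, mul_one, cc, mul_one, aa, mul_one, cc]
  have r1 : a * c = c * a * z := by
    rw [← hz, sq]
    calc _ = c * (a * a) * c * (a * c) := by rw [aa, mul_one, cc, one_mul]
      _ = _ := by group
  have r2 : a * z = z * a := by
    nth_rewrite 1 [← zi]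
    rw [← hz, sq]; group
  have r3 : z * c = c * z := by
    nth_rewrite 1 [← zi]
    rw [← hz, sq]; group
  have add : ∀ t u : ZMod 2, z ^ (t + u).val = z ^ t.val * z ^ u.val := fun t u => by
    rcases z2 t with rfl | rfl <;> rcases z2 u with rfl | rfl <;>
      simp [ZMod.val_one, zz, show (1 + 1 : ZMod 2) = 0 from rfl]
  set x : Fin 3 → Fin 3 → ZMod 2 → G := fun a b t => nn w y a b * z ^ t.val * (nn w y a b)⁻¹ with hx
  have key : ∀ a b c, a ≠ b → b ≠ c → a ≠ c → ∀ t u,
      x a b t * x b c u = x b c u * x a b t * x a c (t * u) ∧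
      x a b t * x a c u = x a c u * x a b t ∧ x a c t * x b c u = x b c u * x a c t := by
    refine fin3_ind (fun t u => by
      rcases z2 t with rfl | rfl <;> rcases z2 u with rfl | rfl <;>
        simp [hx, nn, ZMod.val_one, za, zc, r1, r2, r3]) ?_ ?_ <;>
      intro a b c k1 k2 k3 h t u <;> obtain ⟨e1, e2, e3⟩ := h t u
    · simp only [hx, w_nn hw hy hwy k1, w_nn hw hy hwy k2, w_nn hw hy hwy k3] at e1 e2 e3 ⊢
      exact ⟨by simpa [mul_assoc] using congrArg (fun g => w * g * w⁻¹) e1,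
        by simpa [mul_assoc] using congrArg (fun g => w * g * w⁻¹) e2,
        by simpa [mul_assoc] using congrArg (fun g => w * g * w⁻¹) e3⟩
    · simp only [hx, y_nn hw hy hwy k1, y_nn hw hy hwy k2, y_nn hw hy hwy k3] at e1 e2 e3 ⊢
      exact ⟨by simpa [mul_assoc] using congrArg (fun g => y * g * y⁻¹) e1,
        by simpa [mul_assoc] using congrArg (fun g => y * g * y⁻¹) e2,
        by simpa [mul_assoc] using congrArg (fun g => y * g * y⁻¹) e3⟩
  refine ⟨(preA (n := 2) x (fun a b _ t u => by simp [hx, add, mul_assoc])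
    (fun a b c k1 k2 k3 t u => (key a b c k1 k2 k3 t u).1) fun a b c d k1 k2 k3 k4 t u => by
      by_cases e : a = c
      · subst e
        by_cases e' : b = d
        · subst e'
          simp only [hx, conj_mul, ← add, add_comm]
        · exact (key a b d k1 e' k4 t u).2.1
      · obtain rfl : b = d := by omega
        exact (key a c b e k3.symm k1 t u).2.2).toSt (noA1A le_rfl), fun t => ?_⟩
  refine ⟨(conj_pow (a := y)).symm.trans (by rw [za]), (conj_pow (a := w * y)).symm.trans ?_,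
    (conj_pow (a := w)).symm.trans (by rw [zc]), (conj_pow (a := y * w)).symm.trans ?_⟩
  · rw [← hb, ← za]; congr 1; group
  · rw [← hd, ← zc]; congr 1; group

theorem center_two {B ι : Type} [Fintype B] [DecidableEq B] [Fintype ι] [DecidableEq ι]
    {C : ChevBasis B ι} {ρ : StRep C (ZMod 2) G} (h : ρ.Faithful) (hG : ρ.Gp = ⊤) : center G = ⊥ :=
  eq_bot_iff.2 ((StRep.center_le_H h hG).trans ((closure_le _).2 (by
    rintro _ ⟨r, t, rfl⟩
    rw [Subsingleton.elim t 1, PreSt.h_one]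
    exact one_mem _)))

theorem om10_top {a b : Fin 5 → G} (n : ∀ i, Nd (a i) (b i))
    (e : ∀ p ∈ [((0 : Fin 5), (1 : Fin 5)), (1, 2), (2, 3), (2, 4)], Ed (a p.1) (b p.1) (a p.2) (b p.2))
    (c : ∀ p ∈ [((0 : Fin 5), (2 : Fin 5)), (0, 3), (0, 4), (1, 3), (1, 4), (3, 4)],
      ∀ x ∈ [a p.1, b p.1], ∀ y ∈ [a p.2, b p.2], x * y = y * x) (h : a 0 ≠ 1)
    (g : closure (Set.range a ∪ Set.range b) = ⊤) : Nonempty (G ≃* Om) := by
  have : Nontrivial G := nontrivial_of_ne _ _ h
  have ex : ∀ i, ∃ σ : StRep cbA1 (ZMod 2) G, ∀ t, σ.x true t = a i ^ t.val ∧ σ.x false t = b i ^ t.val :=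
    fun i => by
      obtain ⟨p, hp, k⟩ := (by decide : ∀ i : Fin 5, ∃ p ∈ [((0 : Fin 5), (1 : Fin 5)), (1, 2), (2, 3), (2, 4)],
        i = p.1 ∨ i = p.2) i
      obtain ⟨τ, hτ⟩ := exists_a2 (n _) (n _) (e p hp)
      rcases k with rfl | rfl
      · obtain ⟨σ, h1, h2⟩ := StRep.exists_A1 τ ((cbA 2).simple 0)
        exact ⟨σ, fun t => ⟨(h1 t).trans (hτ t).1, (h2 t).trans (hτ t).2.1⟩⟩
      · obtain ⟨σ, h1, h2⟩ := StRep.exists_A1 τ ((cbA 2).simple 1)
        exact ⟨σ, fun t => ⟨(h1 t).trans (hτ t).2.2.1, (h2 t).trans (hτ t).2.2.2⟩⟩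
  choose σ hσ using ex
  have le : ∀ i (H : Subgroup G), a i ∈ H → b i ∈ H → (σ i).Gp ≤ H := fun i H ha hb =>
    (σ i).U_le_iff.2 fun r _ t => by
      cases r
      exacts [(hσ i t).2 ▸ pow_mem hb _, (hσ i t).1 ▸ pow_mem ha _]
  have cm : ∀ p ∈ [((0 : Fin 5), (2 : Fin 5)), (0, 3), (0, 4), (1, 3), (1, 4), (3, 4)],
      ∀ x ∈ (σ p.1).Gp, ∀ y ∈ (σ p.2).Gp, x * y = y * x := fun p hp x hx y hy => by
    have k : ∀ x ∈ [a p.1, b p.1], x ∈ centralizer ((σ p.2).Gp : Set G) := fun x hx y hy =>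
      mem_centralizer_singleton_iff.1 (le _ _ (mem_centralizer_singleton_iff.2 (c p hp x hx _ (by simp)).symm)
        (mem_centralizer_singleton_iff.2 (c p hp x hx _ (by simp)).symm) hy)
    exact (le _ _ (k _ (by simp)) (k _ (by simp)) hx y hy).symm
  obtain ⟨τ, hτ⟩ := StRep.exists_rep_of_edges (faithful_omRepD (ZMod 2) (n := 5) (by omega))
    (StRep.r3_of_finite _) (fun _ _ _ => Subsingleton.elim _ _) (σ := σ)
    (Adj := fun i j => (i, j) ∈ [((0 : Fin 5), (1 : Fin 5)), (1, 2), (2, 3), (2, 4)] ∨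
      (j, i) ∈ [((0 : Fin 5), (1 : Fin 5)), (1, 2), (2, 3), (2, 4)]) (by decide) (by decide)
    (fun i j => by simp only [cbD_car]; fin_cases i <;> fin_cases j <;> decide) (fun i j h => by
      have k : ∀ p ∈ [((0 : Fin 5), (1 : Fin 5)), (1, 2), (2, 3), (2, 4)], StRep.Edge (σ p.1) (σ p.2) :=
        fun p hp => let ⟨τ, hτ⟩ := exists_a2 (n _) (n _) (e p hp)
        ⟨τ, fun t => by simpa only [hσ] using hτ t⟩
      exact h.elim (k _) fun h => (k _ h).symm) fun i j h1 h2 x hx y hy => by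
      rcases (by decide : ∀ i j : Fin 5, i ≠ j → ¬ ((i, j) ∈ [((0 : Fin 5), (1 : Fin 5)), (1, 2), (2, 3), (2, 4)] ∨
        (j, i) ∈ [((0 : Fin 5), (1 : Fin 5)), (1, 2), (2, 3), (2, 4)]) →
        (i, j) ∈ [((0 : Fin 5), (2 : Fin 5)), (0, 3), (0, 4), (1, 3), (1, 4), (3, 4)] ∨
        (j, i) ∈ [((0 : Fin 5), (2 : Fin 5)), (0, 3), (0, 4), (1, 3), (1, 4), (3, 4)]) i j h1 h2 with k | k
      exacts [cm _ k x hx y hy, (cm _ k y hy x hx).symm]
  have top : τ.Gp = ⊤ := top_le_iff.1 (g.ge.trans ((closure_le _).2 (by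
    rintro _ (⟨i, rfl⟩ | ⟨i, rfl⟩)
    · simpa [(hσ i 1).1, ZMod.val_one] using hτ i ((σ i).x_mem_Gp true 1)
    · simpa [(hσ i 1).2, ZMod.val_one] using hτ i ((σ i).x_mem_Gp false 1))))
  have f := StRep.faithful_of_nontrivial (connD (n := 5) (by omega)) (perfD (ZMod 2) (by omega)) top
  obtain ⟨e1, -⟩ := StRep.exists_equiv_ad f top (center_two f top)
  have f' := faithful_omRepD (ZMod 2) (n := 5) (by omega)
  obtain ⟨e2, -⟩ := StRep.exists_equiv_ad f' (omRepD_Gp _ _) (center_two f' (omRepD_Gp _ _))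
  exact ⟨e1.trans e2.symm⟩

/-- the Curtis--Tits presentation -/
theorem om10 {a b : Fin 5 → G} (n : ∀ i, Nd (a i) (b i))
    (e : ∀ p ∈ [((0 : Fin 5), (1 : Fin 5)), (1, 2), (2, 3), (2, 4)], Ed (a p.1) (b p.1) (a p.2) (b p.2))
    (c : ∀ p ∈ [((0 : Fin 5), (2 : Fin 5)), (0, 3), (0, 4), (1, 3), (1, 4), (3, 4)],
      ∀ x ∈ [a p.1, b p.1], ∀ y ∈ [a p.2, b p.2], x * y = y * x) (h : a 0 ≠ 1) :
    Nonempty (closure (Set.range a ∪ Set.range b) ≃* Om) := by
  let a' : Fin 5 → closure (Set.range a ∪ Set.range b) := fun i => ⟨a i, subset_closure (.inl ⟨i, rfl⟩)⟩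
  let b' : Fin 5 → closure (Set.range a ∪ Set.range b) := fun i => ⟨b i, subset_closure (.inr ⟨i, rfl⟩)⟩
  refine om10_top (a := a') (b := b') (fun i => ⟨Subtype.ext (n i).1, Subtype.ext (n i).2.1,
    Subtype.ext (n i).2.2⟩) (fun p hp => let ⟨h1, h2, h3, h4, h5⟩ := e p hp
      ⟨Subtype.ext h1, Subtype.ext h2, Subtype.ext h3, Subtype.ext h4, Subtype.ext h5⟩)
    (fun p hp x hx y hy => Subtype.ext (c p hp _ ?_ _ ?_)) (fun e => h (congrArg Subtype.val e)) ?_
  · simp only [List.mem_cons, List.not_mem_nil, or_false] at hx ⊢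
    exact hx.imp (congrArg Subtype.val) (congrArg Subtype.val)
  · simp only [List.mem_cons, List.not_mem_nil, or_false] at hy ⊢
    exact hy.imp (congrArg Subtype.val) (congrArg Subtype.val)
  · refine map_injective (subtype_injective _) ?_
    rw [MonoidHom.map_closure, ← MonoidHom.range_eq_map, range_subtype, Set.image_union,
      ← Set.range_comp, ← Set.range_comp]
    rfl

theorem simple_Om : IsSimpleGroup Om :=
  Bt.simple_omega_two (Q := qPlus 5 (ZMod 2)) (qPlus_nondegenerate 5) (by simp)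

theorem index_Om : (Omega (ZMod 2) (quadFormPlus 5 (ZMod 2))).index = 2 :=
  (index_Omega (qPlus 5 (ZMod 2))).trans (index_commutator_even (F := ZMod 2) (qPlus_nondegenerate 5) rfl
    (reflSub_eq_top (qPlus_nondegenerate 5) (Or.inr (by simp))))

theorem card_Om : Nat.card Om = 23499295948800 := by
  have h := (commutator (OG (qPlus 5 (ZMod 2)))).card_mul_index
  rw [index_commutator_even (qPlus_nondegenerate 5) rfl (reflSub_eq_top (qPlus_nondegenerate 5) (Or.inr (by simp))),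
    card_OG_plus (qPlus_nondegenerate 5) (isPlus_qPlus 5) (m := 4) (by simp), Nat.card_zmod,
    ← Nat.card_congr (omegaEquiv (qPlus 5 (ZMod 2))).toEquiv] at h
  simp only [Finset.prod_range_succ, Finset.prod_range_zero] at h
  exact Nat.eq_of_mul_eq_mul_right two_pos (h.trans (by norm_num))

theorem not_alt (m : ℕ) : ¬ Nonempty (Om ≃* alternatingGroup (Fin m)) := fun ⟨e⟩ => by
  have h := (Nat.card_congr e.toEquiv).symm.trans card_Om
  have c : Nat.card (Equiv.Perm (Fin m)) = m.factorial := by simp [Fintype.card_perm]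
  rcases le_or_gt m 16 with l | l
  · have := (h.ge.trans ((card_le_card_group _).trans c.le)).trans (Nat.factorial_le l)
    norm_num [Nat.factorial] at this
  · have : Nontrivial (Fin m) := Fin.nontrivial_iff_two_le.2 (by omega)
    have := (Nat.factorial_le l).trans (c.symm.trans (two_mul_nat_card_alternatingGroup.symm.trans
      (congrArg (2 * ·) h))).le
    norm_num [Nat.factorial] at this

theorem center_Om : center Om = ⊥ :=
  center_two (faithful_omRepD (ZMod 2) (n := 5) (by omega)) (omRepD_Gp (ZMod 2) (n := 5) (by omega))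

theorem card_aut_Om : Nat.card (MulAut Om) = 2 * Nat.card Om := by
  have e : POmega (ZMod 2) (quadFormPlus 5 (ZMod 2)) ≃* Om :=
    (QuotientGroup.quotientMulEquivOfEq center_Om).trans QuotientGroup.quotientBot
  rw [← Nat.card_congr (MulAut.congr e).toEquiv, ← Nat.card_congr e.toEquiv,
    CF.Known.card_aut_plus (p := 2) (f := 1) (by simp) (by omega)]
  simp

theorem aut_Om [Finite G] {K : Subgroup G} (i : K.index = 2) (e : Nonempty (K ≃* Om))
    (c : centralizer (K : Set G) = ⊥) : Nonempty (G ≃* MulAut Om) := by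
  obtain ⟨e⟩ := e
  have := normal_of_index_eq_two i
  have : Finite Om := .of_equiv _ e.toEquiv
  refine ⟨(MulEquiv.ofBijective (MulAut.conjNormal (H := K)) ((Nat.bijective_iff_injective_and_card _).2
    ⟨(injective_iff_map_eq_one _).2 fun g hg => mem_bot.1 (c.le fun x hx => ?_), ?_⟩)).trans (MulAut.congr e)⟩
  · exact (mul_inv_eq_iff_eq_mul.1 (congrArg (fun f : MulAut K => (f ⟨x, hx⟩ : G)) hg)).symm
  · rw [Nat.card_congr (MulAut.congr e).toEquiv, card_aut_Om, ← K.card_mul_index, i,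
      Nat.card_congr e.toEquiv, mul_comm]

theorem o10 [Finite G] {K : Subgroup G} (i : K.index = 2) (e : Nonempty (K ≃* Om))
    (c : centralizer (K : Set G) = ⊥) :
    Nonempty (G ≃* isometryGroup (ZMod 2) (quadFormPlus 5 (ZMod 2))) := by
  obtain ⟨e1⟩ := aut_Om i e c
  obtain ⟨e2⟩ := aut_Om index_Om ⟨MulEquiv.refl _⟩ (eq_bot_iff.2 fun g hg => by
    by_cases k : g ∈ Omega (ZMod 2) (quadFormPlus 5 (ZMod 2))
    · exact congrArg Subtype.val (mem_bot.1 (center_Om.le (mem_center_iff.2 fun x =>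
        Subtype.ext (hg x x.2) : (⟨g, k⟩ : Om) ∈ center Om)))
    obtain ⟨c, hc⟩ := center_omega_scalar (qPlus_nondegenerate 5) (by simp)
      (ρ := (oEquiv (qPlus 5 (ZMod 2))).toMonoidHom)
      (le_top.trans (MonoidHom.range_eq_top.2 (oEquiv _).surjective).ge) g (mem_center_iff.2 fun x => by
        by_cases m : x ∈ Omega (ZMod 2) (quadFormPlus 5 (ZMod 2))
        · exact hg x m
        · have := hg _ ((mul_mem_iff_of_index_two index_Om).2 (iff_of_false m k))
          rwa [← mul_assoc g x g, mul_left_inj] at this)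
    refine (oEquiv (qPlus 5 (ZMod 2))).map_eq_one_iff.1 (Subtype.ext (LinearEquiv.ext fun v => ?_))
    rcases z2 c with rfl | rfl
    · have : v = 0 := by simpa using hc v
      simp [this]
    · simpa using hc v)
  exact ⟨e1.trans e2.symm⟩

end CF.RG
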